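import Cfsg.Agent.PQ.Wl.Ku
import Cfsg.Agent.PQ.G4.Op
import Cfsg.Agent.PQ.Mk.Tow

/-!
# (G3) Kudla's formulas (helper9)

* `kerV`, `kerW` : kernel forms;  `res_thS`, `res_thO`, `thO_ind`, `thS_ind` : operator forms.
-/

set_option autoImplicit false
set_option linter.unusedSectionVars false

namespace Cfsg.Agent.PQ.Wl

open Module Cfsg Cfsg.Agent.PQ.Mk Cfsg.Agent.PQ.G4
open LinearMap (trace)

variable {o : Bool} {F V V' W W' : Type} [Field F] [AddCommGroup V] [Module F V] [AddCommGroup V'] [Module F V']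
  [AddCommGroup W] [Module F W] [AddCommGroup W'] [Module F W'] {ψ : AddChar F ℂ}
  [Finite F] [Finite V] [Finite V'] [Finite W] [Finite W']

theorem exists_rd {Φ : Fm o F V} {Φ' : Fm o F V'} {Λ : Submodule F (V × V')} (h : Lag Φ Φ' Λ) (h0 : rt Λ = ⊥) :
    ∃ ι : V' →ₗ[F] V, Rd Φ.B Φ'.B (lf Λ) ι ∧ (∀ v, Φ.Q (ι v) = Φ'.Q v) ∧
      ∀ g g', act g g' Λ = Λ → Cm (lf Λ) ι g g' := by
  obtain ⟨σ, hσ⟩ := lift_on ⊤ Λ LinearMap.id (LinearMap.snd F V V') fun u _ => by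
    obtain ⟨v, hv⟩ := h.ex_fst (u := u) (by rw [h0]; simp)
    exact ⟨_, hv, rfl⟩
  have h1 : ∀ u, ((σ u).1, u) ∈ Λ := fun u => (Prod.ext rfl (hσ u trivial).2 : σ u = ((σ u).1, u)) ▸ (hσ u trivial).1
  have h2 : ∀ v u, (v, u) ∈ Λ → v - (σ u).1 ∈ lf Λ := fun v u h => by simpa [mem_lf] using sub_mem h (h1 u)
  refine ⟨LinearMap.fst F V V' ∘ₗ σ, ⟨h.ts_lf.le_pp, fun u u' => h.b _ (h1 u) _ (h1 u'), fun u => h.fst_mem (x := ((σ u).1, u)) (h1 u),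
    fun v hv => (h.ex_snd hv).imp (h2 v), fun u hu => (Submodule.eq_bot_iff _).1 h0 u ?_⟩, fun u => h.q _ (h1 u),
    fun g g' e => ⟨fun v => ?_, fun u => h2 _ _ (e.le ⟨_, h1 u, rfl⟩)⟩⟩
  · simpa [mem_rt] using sub_mem (h1 u) (mem_lf.1 hu)
  · conv_lhs => rw [← e, lf_act, Submodule.mem_map_equiv, g.symm_apply_apply]

/-- the stabiliser of a correspondence -/
def st {Φ : Fm o F V} (Λ : Submodule F (V' × V)) : Subgroup Φ.G where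
  carrier := {y | act 1 y.1 Λ = Λ}
  one_mem' := act_one Λ
  mul_mem' := fun {a b} ha hb => (act_mul 1 1 a.1 b.1 Λ).trans ((congrArg _ hb).trans ha)
  inv_mem' := fun {a} ha => by
    have h : act 1 a.1 Λ = Λ := ha
    change act 1 (a⁻¹).1 Λ = Λ
    conv_lhs => rw [← h, ← act_mul, one_mul, ← Subgroup.coe_mul, inv_mul_cancel]
    exact act_one Λ

theorem mem_st {Φ : Fm o F V} {Φ' : Fm o F V'} {Λ : Submodule F (V' × V)} (h : Lag Φ' Φ Λ) {y : Φ.G} :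
    y ∈ st Λ ↔ ∀ v ∈ Φ.pp (rt Λ), y.1 v - v ∈ rt Λ :=
  ⟨fun e v hv => by
    obtain ⟨u, hu⟩ := h.ex_fst hv
    simpa [mem_rt] using sub_mem ((show act 1 y.1 Λ = Λ from e).le ⟨_, hu, rfl⟩) hu,
  fun e => act_eq h h 1 y fun x hx => by
    convert add_mem hx (mem_rt.1 (e _ (h.snd_mem hx))) using 1
    exact Prod.ext (add_zero _).symm (add_sub_cancel _ _).symm⟩

open Classical in
theorem res_eq {Φ : Fm o F V} {Φ' : Fm o F V'} {k : ℕ} {Λ : Submodule F (V' × V)} (h : Λ ∈ Cor Φ' Φ 0 k)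
    {f : Φ.G → ℂ} (hf : IsClassFunction Φ.G f) {g' : Φ'.G} {g : Φ.G} (e : act g'.1 g.1 Λ = Λ) :
    Fintype.card (st (Φ := Φ) Λ) * op Φ' Φ 0 k f g' = ∑ r : st (Φ := Φ) Λ, f (g * r) := by
  rw [← Nat.card_eq_fintype_card]
  refine (op_res hf h g').trans ?_
  rw [sv, ← Finset.sum_subtype (Finset.univ.filter (· ∈ st Λ)) (by simp) fun r => f (g * r)]
  refine (Finset.sum_equiv (Equiv.mulLeft g) (fun r => ?_) fun _ _ => rfl).symm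
  simp only [Finset.mem_filter, Finset.mem_univ, true_and, Equiv.coe_mulLeft]
  have h1 : act g'.1 (g * r).1 Λ = act g'.1 g.1 (act 1 r.1 Λ) := by rw [← act_mul, mul_one, Subgroup.coe_mul]
  refine ⟨fun hr => by rw [h1, show act 1 r.1 Λ = Λ from hr, e], fun hr => ?_⟩
  have h2 := congrArg (act g'.1⁻¹ g.1⁻¹) ((h1.symm.trans hr).trans e.symm)
  simp only [← act_mul, inv_mul_cancel, inv_mul_cancel_left, act_one, mul_one] at h2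
  exact h2

/-- the sum over the fixed totally singular subspaces of dimension at most `k` -/
theorem sum_ind {Ψ : Fm o F W} {Ws : ℕ → Type} [∀ i, AddCommGroup (Ws i)] [∀ i, Module F (Ws i)] [∀ i, Finite (Ws i)]
    (Ψs : ∀ i, Fm o F (Ws i)) {k : ℕ}
    (hs : ∀ i ≤ k, ∀ T, Ψ.TS T → finrank F T = i → (Cor Ψ (Ψs i) i 0).Nonempty) (f : ∀ i, (Ψs i).G → ℂ)
    (hf : ∀ i, (Cor Ψ (Ψs i) i 0).Nonempty → IsClassFunction _ (f i)) (h : Ψ.G) (t : Submodule F W → ℂ)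
    (ht : ∀ i, ∀ Λ ∈ Cor Ψ (Ψs i) i 0, ∀ h', act h.1 h'.1 Λ = Λ → f i h' = t (lf Λ)) (J : Finset (Submodule F W))
    (hJ : ∀ T, T ∈ J ↔ Ψ.TS T ∧ finrank F T ≤ k ∧ T.map (h.1 : W →ₗ[F] W) = T) :
    ∑ T ∈ J, t T = ∑ i ∈ Finset.range (k + 1), op Ψ (Ψs i) i 0 (f i) h := by
  classical
  rw [← Finset.sum_fiberwise_of_maps_to (g := fun T : Submodule F W => finrank F T) (t := Finset.range (k + 1))
    fun T hT => Finset.mem_range.2 (Nat.lt_succ_of_le ((hJ T).1 hT).2.1)]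
  refine Finset.sum_congr rfl fun i hi => ?_
  replace hi := Nat.le_of_lt_succ (Finset.mem_range.1 hi)
  by_cases hc : (Cor Ψ (Ψs i) i 0).Nonempty
  · have h1 : ∀ T ∈ J.filter fun T : Submodule F W => finrank F T = i, ∃ Λ, ∃ ρ : (Ψs i).G,
        Λ ∈ Cor Ψ (Ψs i) i 0 ∧ lf Λ = T ∧ act h.1 ρ.1 Λ = Λ := fun T hT => by
      obtain ⟨h1, h2⟩ := Finset.mem_filter.1 hT
      obtain ⟨Λ, h3, rfl⟩ := exists_cor hc ((hJ T).1 h1).1 h2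
      obtain ⟨ρ, h4⟩ := exists_red h3.1 ((hJ _).1 h1).2.2
      exact ⟨Λ, ρ, h3, rfl, h4⟩
    choose! L ρ h1 using h1
    rw [op_ind (hf i hc) h _ L ρ h1 fun X h2 h3 h4 => Finset.mem_filter.2 ⟨(hJ X).2 ⟨h2, h3 ▸ hi, h4⟩, h3⟩]
    exact Finset.sum_congr rfl fun T hT => by rw [ht i _ (h1 T hT).1 _ (h1 T hT).2.2, (h1 T hT).2.1]
  · rw [op_empty hc, Finset.sum_eq_zero fun T hT => absurd (hs i hi T ((hJ T).1 (Finset.mem_filter.1 hT).1).1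
      (Finset.mem_filter.1 hT).2) hc]
    rfl

theorem ts_iff_V (Φ : Fm false F V) (E : Submodule F V) : ItV Φ.B E ↔ Φ.TS E :=
  ⟨fun h => ⟨h, fun _ _ => by rw [(Φ.sp rfl).2]; rfl⟩, fun h => h.b⟩

theorem ts_iff_W (Ψ : Fm true F W) (T : Submodule F W) : ItW Ψ.Q T ↔ Ψ.TS T :=
  ⟨fun h => ⟨fun _ hx _ hy => Ψ.og rfl ▸ h.polar hx hy, h⟩, fun h => h.q⟩

theorem even_of_cor {Ψ : Fm o F W} {Ψ' : Fm o F W'} {i j : ℕ} (h : (Cor Ψ Ψ' i j).Nonempty) (hW : Even (finrank F W)) :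
    Even (finrank F W') := by
  have := cor_dim h
  rw [Nat.even_iff] at hW ⊢
  omega

theorem op_ko {Φ : Fm o F V} {Φ' : Fm o F V'} {B : Type} [Fintype B] (i j : ℕ) (κ : Φ'.G → B → ℂ) (f : B → ℂ) :
    op Φ Φ' i j (ko κ f) = ko (fun g b => op Φ Φ' i j (κ · b) g) f := ko_ko (fun g g' => (K Φ Φ' i j g g' : ℂ)) κ f

theorem ko_op {Φ : Fm o F V} {Φ' : Fm o F V'} {A : Type} (i j : ℕ) (κ : A → Φ.G → ℂ) (f : Φ'.G → ℂ) :
    ko κ (op Φ Φ' i j f) = ko (fun a g' => op Φ' Φ j i (κ a) g') f :=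
  (ko_ko κ (fun g g' => (K Φ Φ' i j g g' : ℂ)) f).trans (by simp only [op_apply, K_sw (Φ := Φ') (Φ' := Φ), mul_comm])

theorem op_star {Φ : Fm o F V} {Φ' : Fm o F V'} (i j : ℕ) (f : Φ'.G → ℂ) (g : Φ.G) :
    op Φ Φ' i j (fun g' => starRingEnd ℂ (f g')) g = starRingEnd ℂ (op Φ Φ' i j f g) := by
  simp only [op_apply, map_mul, map_sum, map_inv₀, map_natCast]

theorem ko_sum {A B ι : Type} [Fintype B] (s : Finset ι) (κ : ι → A → B → ℂ) (f : B → ℂ) :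
    ko (fun a b => ∑ i ∈ s, κ i a b) f = ∑ i ∈ s, ko (κ i) f := by
  funext a
  simp only [ko_apply, Finset.sum_apply, Finset.sum_mul, Finset.mul_sum]
  exact Finset.sum_comm

variable (hψ : ψ ≠ 1) (Φ : Fm false F V) (Ψ : Fm true F W) (hW : Even (finrank F W)) {k : ℕ}
include hψ hW

section V

variable (Φ' : Fm false F V') (h₁ : (Cor Φ' Φ 0 k).Nonempty) {Ws : ℕ → Type} [∀ i, AddCommGroup (Ws i)]
  [∀ i, Module F (Ws i)] [∀ i, Finite (Ws i)] (Ψs : ∀ i, Fm true F (Ws i))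
  (hs : ∀ i ≤ k, ∀ T, Ψ.TS T → finrank F T = i → (Cor Ψ (Ψs i) i 0).Nonempty)
include h₁ hs

/-- **Kudla, symplectic side** -/
theorem kerV (g' : Φ'.G) (h : Ψ.G) :
    op Φ' Φ 0 k (th ψ Φ Ψ · h) g' = ∑ i ∈ Finset.range (k + 1), op Ψ (Ψs i) i 0 (th ψ Φ' (Ψs i) g') h := by
  classical
  obtain ⟨Λ, hΛ⟩ := h₁
  obtain ⟨U, ⟨O⟩⟩ := (cx hψ Φ Ψ hW).exists_osc
  obtain ⟨g, hg⟩ := exists_red hΛ.1 (g := g') (by rw [eq_bot hΛ.2.1, Submodule.map_bot])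
  obtain ⟨ι, R, -, hc⟩ := exists_rd hΛ.1.sw (eq_bot hΛ.2.1)
  replace hc := hc g.1 g'.1 (by rw [← sw_act, hg])
  have : Finite (Submodule F W) := Finite.of_injective (fun L : Submodule F W => (L : Set W)) SetLike.coe_injective
  have := Fintype.ofFinite (Submodule F W)
  have h0 : (Fintype.card (st (Φ := Φ) Λ) : ℂ) ≠ 0 := Nat.cast_ne_zero.2 Fintype.card_ne_zero
  refine mul_left_cancel₀ h0 ?_
  rw [res_eq hΛ (fun a x => by simpa using th_conj hψ Φ Ψ hW a x h 1) hg,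
    ← sum_ind Ψs hs _ (fun i hi a x => by simpa using th_conj hψ Φ' _ (even_of_cor hi hW) g' 1 a x) h
      (fun T => trace ℂ U (O.A g.1 * O.C h.1 * O.pV (rt Λ) * O.qV (rt Λ) T)) (fun i Λ' hΛ' h' e => ?_)
      (Finset.univ.filter fun T => Ψ.TS T ∧ finrank F T ≤ k ∧ T.map (h.1 : W →ₗ[F] W) = T) (by simp),
    ← O.kudlaV (E := rt Λ) R.itV (isV g) hc.map (isW h) (Φ.G.subtype.comp (st Λ).subtype) (fun r => isV r.1)
      (fun r => (mem_st hΛ.1).1 r.2) (fun y h1 h2 =>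
        ⟨⟨⟨y, h1, fun _ => by rw [(Φ.sp rfl).2]; rfl⟩, (mem_st hΛ.1).2 h2⟩, rfl⟩) _ fun T => by
          rw [Finset.mem_filter, ts_iff_W, hΛ.2.2]
          simp]
  · refine Finset.sum_congr rfl fun r _ => ?_
    rw [th, ← O.tr_eq_Th (isV _) (isW _), Subgroup.coe_mul, O.A_mul (isV g) (isV r.1), mul_assoc,
      O.A_comm_C (isV r.1) (isW h), mul_assoc]
    rfl
  · obtain ⟨ι', R', h1, h2⟩ := exists_rd hΛ'.1 (eq_bot hΛ'.2.2)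
    rw [← Ψ.og rfl, ← (Ψs i).og rfl] at R'
    exact O.Th_redVW R R' hΛ'.1.ts_lf.q h1 (cx hψ Φ' _ (even_of_cor ⟨_, hΛ'⟩ hW)) (isV g) (isV g') hc (isW h) (isW h')
      (h2 _ _ e)

/-- `h_k* Θ = ∑ Θ h_i*` -/
theorem res_thS (f : Ψ.G → ℂ) :
    op Φ' Φ 0 k (thS ψ Φ Ψ f) = ∑ i ∈ Finset.range (k + 1), thS ψ Φ' (Ψs i) (op (Ψs i) Ψ 0 i f) := by
  simp only [thS, op_ko, ko_op, kerV hψ Φ Ψ hW Φ' h₁ Ψs hs, ko_sum]

/-- `Θ* h_k = ∑ h_i Θ*` -/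
theorem thO_ind (f : Φ'.G → ℂ) :
    thO ψ Ψ Φ (op Φ Φ' k 0 f) = ∑ i ∈ Finset.range (k + 1), op Ψ (Ψs i) i 0 (thO ψ (Ψs i) Φ' f) := by
  simp only [thO, op_ko, ko_op, op_star, kerV hψ Φ Ψ hW Φ' h₁ Ψs hs, map_sum, ko_sum]

end V

section W

variable (Ψ' : Fm true F W') (h₁ : (Cor Ψ' Ψ 0 k).Nonempty) {Vs : ℕ → Type} [∀ i, AddCommGroup (Vs i)]
  [∀ i, Module F (Vs i)] [∀ i, Finite (Vs i)] (Φs : ∀ i, Fm false F (Vs i))
  (hs : ∀ i ≤ k, ∀ E, Φ.TS E → finrank F E = i → (Cor Φ (Φs i) i 0).Nonempty)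
include h₁ hs

/-- **Kudla, orthogonal side** -/
theorem kerW (g : Φ.G) (h' : Ψ'.G) :
    op Ψ' Ψ 0 k (th ψ Φ Ψ g) h' = ∑ i ∈ Finset.range (k + 1), op Φ (Φs i) i 0 (th ψ (Φs i) Ψ' · h') g := by
  classical
  have hW' := even_of_cor (cor_sw h₁) hW
  obtain ⟨Λ, hΛ⟩ := h₁
  obtain ⟨U, ⟨O⟩⟩ := (cx hψ Φ Ψ hW).exists_osc
  obtain ⟨h, hh⟩ := exists_red hΛ.1 (g := h') (by rw [eq_bot hΛ.2.1, Submodule.map_bot])
  obtain ⟨ι, R, h1, hc⟩ := exists_rd hΛ.1.sw (eq_bot hΛ.2.1)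
  replace hc := hc h.1 h'.1 (by rw [← sw_act, hh])
  rw [← Ψ.og rfl, ← Ψ'.og rfl] at R
  have h2 : ∀ y : Ψ.G, y ∈ st Λ ↔ ∀ v ∈ ow Ψ.Q (rt Λ), y.1 v - v ∈ rt Λ := fun y => by
    rw [mem_st hΛ.1, ow, Ψ.og rfl]
  have : Finite (Submodule F V) := Finite.of_injective (fun L : Submodule F V => (L : Set V)) SetLike.coe_injective
  have := Fintype.ofFinite (Submodule F V)
  have h0 : (Fintype.card (st (Φ := Ψ) Λ) : ℂ) ≠ 0 := Nat.cast_ne_zero.2 Fintype.card_ne_zero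
  refine mul_left_cancel₀ h0 ?_
  rw [res_eq hΛ (fun a x => by simpa using th_conj hψ Φ Ψ hW g 1 a x) hh,
    ← sum_ind Φs hs _ (fun i hi a x => by simpa using th_conj hψ _ Ψ' hW' a x h' 1) g
      (fun E => trace ℂ U (O.A g.1 * O.C h.1 * O.pW (rt Λ) * O.qW E (rt Λ))) (fun i Λ' hΛ' g' e => ?_)
      (Finset.univ.filter fun T => Φ.TS T ∧ finrank F T ≤ k ∧ T.map (g.1 : V →ₗ[F] V) = T) (by simp),
    ← O.kudlaW hΛ.1.ts_rt.q (isV g) (isW h) hc.map (Ψ.G.subtype.comp (st Λ).subtype) (fun r => isW r.1)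
      (fun r => (h2 _).1 r.2) (fun y h1 h3 =>
        ⟨⟨⟨y, fun u v => Ψ.og rfl ▸ h1.polar u v, h1⟩, (h2 _).2 h3⟩, rfl⟩) _ fun T => by
          rw [Finset.mem_filter, ts_iff_V, hΛ.2.2]
          simp]
  · refine Finset.sum_congr rfl fun r _ => ?_
    rw [th, ← O.tr_eq_Th (isV _) (isW _), Subgroup.coe_mul, O.C_mul (isW h) (isW r.1), mul_assoc]
    rfl
  · obtain ⟨ι', R', -, h3⟩ := exists_rd hΛ'.1 (eq_bot hΛ'.2.2)
    exact O.Th_redWV R' R hΛ.1.ts_rt.q h1 (cx hψ _ Ψ' hW') (isV g) (isV g') (h3 _ _ e) (isW h) (isW h') hc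

/-- `h_k* Θ* = ∑ Θ* h_i*` -/
theorem res_thO (f : Φ.G → ℂ) :
    op Ψ' Ψ 0 k (thO ψ Ψ Φ f) = ∑ i ∈ Finset.range (k + 1), thO ψ Ψ' (Φs i) (op (Φs i) Φ 0 i f) := by
  simp only [thO, op_ko, ko_op, op_star, kerW hψ Φ Ψ hW Ψ' h₁ Φs hs, map_sum, ko_sum]

/-- `Θ h_k = ∑ h_i Θ` -/
theorem thS_ind (f : Ψ'.G → ℂ) :
    thS ψ Φ Ψ (op Ψ Ψ' k 0 f) = ∑ i ∈ Finset.range (k + 1), op Φ (Φs i) i 0 (thS ψ (Φs i) Ψ' f) := by
  simp only [thS, op_ko, ko_op, kerW hψ Φ Ψ hW Ψ' h₁ Φs hs, ko_sum]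

end W

end Cfsg.Agent.PQ.Wl
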