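import Cfsg.Agent.PQ.Wl.G3
import Cfsg.Agent.PQ.Wo.Ku
import Cfsg.Agent.PQ.Mk.TwA

/-!
# (G3) Kudla's formulas, `q` odd, orthogonal spaces of odd dimension (helper9)

* `tx ψ Φ Ψ g h` (reducible) is `Wo.Th ψ Φ.B Ψ.Q g.1 h.1`;
* `kerVx`, `kerWx` : kernel forms;  `res_thSx`, `res_thOx`, `thO_indx`, `thS_indx` : operator forms.
-/

set_option autoImplicit false
set_option linter.unusedSectionVars false

namespace Cfsg.Agent.PQ.Wl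

open Module Cfsg Cfsg.Agent.PQ.Mk Cfsg.Agent.PQ.G4
open LinearMap (trace)

variable {o : Bool} {F V V' W W' : Type} [Field F] [AddCommGroup V] [Module F V] [AddCommGroup V'] [Module F V']
  [AddCommGroup W] [Module F W] [AddCommGroup W'] [Module F W'] {ψ : AddChar F ℂ} {χ : MulChar F ℂ}
  [Finite F] [Finite V] [Finite V'] [Finite W] [Finite W']

open Classical in
theorem res_eqx (hχ : Qd o χ) {Φ : Fm o F V} {Φ' : Fm o F V'} {k : ℕ} {Λ : Submodule F (V' × V)} (h : Λ ∈ Cor Φ' Φ 0 k)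
    {f : Φ.G → ℂ} (hf : IsClassFunction Φ.G f) {g' : Φ'.G} {g : Φ.G} (e : act g'.1 g.1 Λ = Λ) :
    Fintype.card (st (Φ := Φ) Λ) * opx χ Φ' Φ 0 k f g' = χ (dt (g.1 : V →ₗ[F] V) (rt Λ)) *
      ∑ r : st (Φ := Φ) Λ, χ (dt (r.1.1 : V →ₗ[F] V) (rt Λ)) * f (g * r) := by
  rw [← Nat.card_eq_fintype_card]
  refine (opx_res hf h g').trans ?_
  have h1 : ∀ r : Φ.G, act g'.1 (g * r).1 Λ = act g'.1 g.1 (act 1 r.1 Λ) := fun r => by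
    rw [← act_mul, mul_one, Subgroup.coe_mul]
  rw [svx, ← Equiv.sum_comp (Equiv.mulLeft g), Finset.mul_sum,
    ← Finset.sum_subtype (Finset.univ.filter (· ∈ st Λ)) (by simp) fun r : Φ.G =>
      χ (dt (g.1 : V →ₗ[F] V) (rt Λ)) * (χ (dt (r.1 : V →ₗ[F] V) (rt Λ)) * f (g * r)), Finset.sum_filter]
  refine Finset.sum_congr rfl fun r _ => ?_
  rw [Equiv.coe_mulLeft]
  split_ifs with hr
  · have h2 : act 1 r.1 Λ = Λ := hr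
    rw [wt_lag hχ h.1 (by rw [h1, h2, e]), eq_bot h.2.1, dt_bot, map_one, one_mul, ← mul_assoc, ← map_mul,
      ← dt_mul (inv_rt e) (inv_rt h2)]
    rfl
  · rw [wt_of_not fun h3 => hr ?_, zero_mul]
    have h2 := congrArg (act g'.1⁻¹ g.1⁻¹) (((h1 r).symm.trans h3).trans e.symm)
    simp only [← act_mul, inv_mul_cancel, inv_mul_cancel_left, act_one, mul_one] at h2
    exact h2

/-- the weighted sum over the fixed totally singular subspaces of dimension at most `k` -/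
theorem sum_indx (hχ : Qd o χ) {Ψ : Fm o F W} {Ws : ℕ → Type} [∀ i, AddCommGroup (Ws i)] [∀ i, Module F (Ws i)]
    [∀ i, Finite (Ws i)] (Ψs : ∀ i, Fm o F (Ws i)) {k : ℕ}
    (hs : ∀ i ≤ k, ∀ T, Ψ.TS T → finrank F T = i → (Cor Ψ (Ψs i) i 0).Nonempty) (f : ∀ i, (Ψs i).G → ℂ)
    (hf : ∀ i, IsClassFunction _ (f i)) (h : Ψ.G) (t : Submodule F W → ℂ)
    (ht : ∀ i, ∀ Λ ∈ Cor Ψ (Ψs i) i 0, ∀ h', act h.1 h'.1 Λ = Λ → χ (dt (h.1 : W →ₗ[F] W) (lf Λ)) * f i h' = t (lf Λ))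
    (J : Finset (Submodule F W)) (hJ : ∀ T, T ∈ J ↔ Ψ.TS T ∧ finrank F T ≤ k ∧ T.map (h.1 : W →ₗ[F] W) = T) :
    ∑ T ∈ J, t T = ∑ i ∈ Finset.range (k + 1), opx χ Ψ (Ψs i) i 0 (f i) h := by
  classical
  rw [← Finset.sum_fiberwise_of_maps_to (g := fun T : Submodule F W => finrank F T) (t := Finset.range (k + 1))
    fun T hT => Finset.mem_range.2 (Nat.lt_succ_of_le ((hJ T).1 hT).2.1)]
  refine Finset.sum_congr rfl fun i hi => ?_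
  replace hi := Nat.le_of_lt_succ (Finset.mem_range.1 hi)
  by_cases hc : (Cor Ψ (Ψs i) i 0).Nonempty
  · have h1 : ∀ T ∈ J.filter fun T : Submodule F W => finrank F T = i, ∃ Λ, ∃ ρ : (Ψs i).G,
        Λ ∈ Cor Ψ (Ψs i) i 0 ∧ lf Λ = T ∧ act h.1 ρ.1 Λ = Λ := fun T hT => by
      obtain ⟨h1, h2⟩ := Finset.mem_filter.1 hT
      obtain ⟨Λ, h3, rfl⟩ := exists_cor hc ((hJ T).1 h1).1 h2
      obtain ⟨ρ, h4⟩ := exists_red h3.1 ((hJ _).1 h1).2.2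
      exact ⟨Λ, ρ, h3, rfl, h4⟩
    choose! L ρ h1 using h1
    rw [opx_ind hχ (hf i) h _ L ρ h1 fun X h2 h3 h4 => Finset.mem_filter.2 ⟨(hJ X).2 ⟨h2, h3 ▸ hi, h4⟩, h3⟩]
    exact Finset.sum_congr rfl fun T hT => by
      have h2 := ht i _ (h1 T hT).1 _ (h1 T hT).2.2
      rw [(h1 T hT).2.1] at h2
      exact h2.symm
  · rw [opx_empty hc, Finset.sum_eq_zero fun T hT => absurd (hs i hi T ((hJ T).1 (Finset.mem_filter.1 hT).1).1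
      (Finset.mem_filter.1 hT).2) hc]
    rfl

theorem odd_of_cor {Ψ : Fm o F W} {Ψ' : Fm o F W'} {i j : ℕ} (h : (Cor Ψ Ψ' i j).Nonempty) (hW : Odd (finrank F W)) :
    Odd (finrank F W') := by
  have := cor_dim h
  rw [Nat.odd_iff] at hW ⊢
  omega

theorem opx_ko {Φ : Fm o F V} {Φ' : Fm o F V'} {B : Type} [Fintype B] (i j : ℕ) (κ : Φ'.G → B → ℂ) (f : B → ℂ) :
    opx χ Φ Φ' i j (ko κ f) = ko (fun g b => opx χ Φ Φ' i j (κ · b) g) f := ko_ko (Kx χ Φ Φ' i j) κ f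

theorem ko_opx {Φ : Fm o F V} {Φ' : Fm o F V'} {A : Type} (i j : ℕ) (κ : A → Φ.G → ℂ) (f : Φ'.G → ℂ) :
    ko κ (opx χ Φ Φ' i j f) = ko (fun a g' => opx χ Φ' Φ j i (κ a) g') f :=
  (ko_ko κ (Kx χ Φ Φ' i j) f).trans (by simp only [opx_apply, Kx_sw (Φ := Φ') (Φ' := Φ), mul_comm])

theorem opx_star (hχ : Qd o χ) {Φ : Fm o F V} {Φ' : Fm o F V'} (i j : ℕ) (f : Φ'.G → ℂ) (g : Φ.G) :
    opx χ Φ Φ' i j (fun g' => starRingEnd ℂ (f g')) g = starRingEnd ℂ (opx χ Φ Φ' i j f g) := by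
  simp only [opx_apply, map_mul, map_sum, map_inv₀, map_natCast, Kx_real hχ]

/-- the Weil kernel, `q` odd -/
noncomputable abbrev tx (ψ : AddChar F ℂ) (Φ : Fm false F V) (Ψ : Fm true F W) (g : Φ.G) (h : Ψ.G) : ℂ :=
  Wo.Th ψ Φ.B Ψ.Q g.1 h.1

theorem qd_qc : Qd false (Wo.qc F) := Qd.sp fun _ => Wo.qc_sq

variable (hψ : ψ ≠ 1) (h2 : (2 : F) ≠ 0) (Φ : Fm false F V) (Ψ : Fm true F W)
include hψ h2

theorem cxo : Wo.Cx ψ Φ.B Ψ.Q (Real.sqrt (Nat.card W)) :=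
  Wo.exists_cx hψ h2 (fun w h => Ψ.nd.1 w (by rw [← Ψ.og rfl]; exact h)) (Φ.sp rfl).1 Φ.nd.1

theorem tx_conj (g x : Φ.G) (h y : Ψ.G) : tx ψ Φ Ψ (x * g * x⁻¹) (y * h * y⁻¹) = tx ψ Φ Ψ g h :=
  Wo.Th_conj (cxo hψ h2 Φ Ψ) (isV g) (isW h) (isV x) (isW y)

theorem gco (hW : Odd (finrank F W)) : Wo.Gc ψ Ψ.Q (Wo.qc F) :=
  Wo.gc_odd hψ h2 (fun w h => Ψ.nd.1 w (by rw [← Ψ.og rfl]; exact h)) hW

variable (hW : Odd (finrank F W)) {k : ℕ}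
include hW

section V

variable (Φ' : Fm false F V') (h₁ : (Cor Φ' Φ 0 k).Nonempty) {Ws : ℕ → Type} [∀ i, AddCommGroup (Ws i)]
  [∀ i, Module F (Ws i)] [∀ i, Finite (Ws i)] (Ψs : ∀ i, Fm true F (Ws i))
  (hs : ∀ i ≤ k, ∀ T, Ψ.TS T → finrank F T = i → (Cor Ψ (Ψs i) i 0).Nonempty)
include h₁ hs

/-- **Kudla, symplectic side** -/
theorem kerVx (g' : Φ'.G) (h : Ψ.G) :
    opx (Wo.qc F) Φ' Φ 0 k (tx ψ Φ Ψ · h) g' = ∑ i ∈ Finset.range (k + 1), op Ψ (Ψs i) i 0 (tx ψ Φ' (Ψs i) g') h := by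
  classical
  obtain ⟨Λ, hΛ⟩ := h₁
  obtain ⟨U, ⟨O⟩⟩ := (cxo hψ h2 Φ Ψ).exists_osc
  have hχ := gco hψ h2 Ψ hW
  obtain ⟨g, hg⟩ := exists_red hΛ.1 (g := g') (by rw [eq_bot hΛ.2.1, Submodule.map_bot])
  obtain ⟨ι, R, -, hc⟩ := exists_rd hΛ.1.sw (eq_bot hΛ.2.1)
  replace hc := hc g.1 g'.1 (by rw [← sw_act, hg])
  have : Finite (Submodule F W) := Finite.of_injective (fun L : Submodule F W => (L : Set W)) SetLike.coe_injective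
  have := Fintype.ofFinite (Submodule F W)
  have h0 : (Fintype.card (st (Φ := Φ) Λ) : ℂ) ≠ 0 := Nat.cast_ne_zero.2 Fintype.card_ne_zero
  refine mul_left_cancel₀ h0 ?_
  rw [res_eqx qd_qc hΛ (fun a x => by simpa using tx_conj hψ h2 Φ Ψ a x h 1) hg,
    ← sum_ind Ψs hs _ (fun i _ a x => by simpa using tx_conj hψ h2 Φ' _ g' 1 a x) h
      (fun T => Wo.qc F (dt (g.1 : V →ₗ[F] V) (rt Λ)) * trace ℂ U (O.A g.1 * O.C h.1 * O.pV (rt Λ) * O.qV (rt Λ) T))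
      (fun i Λ' hΛ' h' e => ?_)
      (Finset.univ.filter fun T => Ψ.TS T ∧ finrank F T ≤ k ∧ T.map (h.1 : W →ₗ[F] W) = T) (by simp),
    ← Finset.mul_sum, mul_left_comm,
    ← O.kudlaV (E := rt Λ) hχ R.itV (isV g) hc.map (isW h) (Φ.G.subtype.comp (st Λ).subtype) (fun r => isV r.1)
      (fun r => (mem_st hΛ.1).1 r.2) (fun y h1 h2 =>
        ⟨⟨⟨y, h1, fun _ => by rw [(Φ.sp rfl).2]; rfl⟩, (mem_st hΛ.1).2 h2⟩, rfl⟩) _ fun T => by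
          rw [Finset.mem_filter, ts_iff_W, hΛ.2.2]
          simp]
  · refine congrArg _ (Finset.sum_congr rfl fun r _ => ?_)
    rw [tx, ← O.tr_eq_Th (isV _) (isW _), Subgroup.coe_mul, O.A_mul (isV g) (isV r.1), mul_assoc,
      O.A_comm_C (isV r.1) (isW h), Wo.Osc.Ax, mul_smul_comm, map_smul, mul_assoc]
    rfl
  · obtain ⟨ι', R', h1, h3⟩ := exists_rd hΛ'.1 (eq_bot hΛ'.2.2)
    rw [← Ψ.og rfl, ← (Ψs i).og rfl] at R'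
    have h4 := O.Th_redVW R R' hΛ'.1.ts_lf.q h1 (cxo hψ h2 Φ' _) (isV g) (isV g') hc (isW h) (isW h') (h3 _ _ e) hχ
    refine Eq.trans ?_ (congrArg _ h4)
    exact ((mul_assoc _ _ _).symm.trans ((congrArg (· * _) (Wo.qc_sq (dt_ne_zero (inv_rt hg)))).trans (one_mul _))).symm

/-- `h_k* Θ = ∑ Θ h_i*` -/
theorem res_thSx (f : Ψ.G → ℂ) : opx (Wo.qc F) Φ' Φ 0 k (ko (tx ψ Φ Ψ) f) =
    ∑ i ∈ Finset.range (k + 1), ko (tx ψ Φ' (Ψs i)) (op (Ψs i) Ψ 0 i f) := by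
  simp only [opx_ko, ko_op, kerVx hψ h2 Φ Ψ hW Φ' h₁ Ψs hs, ko_sum]

/-- `Θ* h_k = ∑ h_i Θ*` -/
theorem thO_indx (f : Φ'.G → ℂ) : ko (fun h g => starRingEnd ℂ (tx ψ Φ Ψ g h)) (opx (Wo.qc F) Φ Φ' k 0 f) =
    ∑ i ∈ Finset.range (k + 1), op Ψ (Ψs i) i 0 (ko (fun h g => starRingEnd ℂ (tx ψ Φ' (Ψs i) g h)) f) := by
  simp only [op_ko, ko_opx, op_star, opx_star qd_qc, kerVx hψ h2 Φ Ψ hW Φ' h₁ Ψs hs, map_sum, ko_sum]

end V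

section W

variable (Ψ' : Fm true F W') (h₁ : (Cor Ψ' Ψ 0 k).Nonempty) {Vs : ℕ → Type} [∀ i, AddCommGroup (Vs i)]
  [∀ i, Module F (Vs i)] [∀ i, Finite (Vs i)] (Φs : ∀ i, Fm false F (Vs i))
  (hs : ∀ i ≤ k, ∀ E, Φ.TS E → finrank F E = i → (Cor Φ (Φs i) i 0).Nonempty)
include h₁ hs

/-- **Kudla, orthogonal side** -/
theorem kerWx (g : Φ.G) (h' : Ψ'.G) :
    op Ψ' Ψ 0 k (tx ψ Φ Ψ g) h' = ∑ i ∈ Finset.range (k + 1), opx (Wo.qc F) Φ (Φs i) i 0 (tx ψ (Φs i) Ψ' · h') g := by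
  classical
  have hχ := gco hψ h2 Ψ' (odd_of_cor (cor_sw h₁) hW)
  obtain ⟨Λ, hΛ⟩ := h₁
  obtain ⟨U, ⟨O⟩⟩ := (cxo hψ h2 Φ Ψ).exists_osc
  obtain ⟨h, hh⟩ := exists_red hΛ.1 (g := h') (by rw [eq_bot hΛ.2.1, Submodule.map_bot])
  obtain ⟨ι, R, h1, hc⟩ := exists_rd hΛ.1.sw (eq_bot hΛ.2.1)
  replace hc := hc h.1 h'.1 (by rw [← sw_act, hh])
  rw [← Ψ.og rfl, ← Ψ'.og rfl] at R
  have h4 : ∀ y : Ψ.G, y ∈ st Λ ↔ ∀ v ∈ ow Ψ.Q (rt Λ), y.1 v - v ∈ rt Λ := fun y => by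
    rw [mem_st hΛ.1, ow, Ψ.og rfl]
  have : Finite (Submodule F V) := Finite.of_injective (fun L : Submodule F V => (L : Set V)) SetLike.coe_injective
  have := Fintype.ofFinite (Submodule F V)
  have h0 : (Fintype.card (st (Φ := Ψ) Λ) : ℂ) ≠ 0 := Nat.cast_ne_zero.2 Fintype.card_ne_zero
  refine mul_left_cancel₀ h0 ?_
  rw [res_eq hΛ (fun a x => by simpa using tx_conj hψ h2 Φ Ψ g 1 a x) hh,
    ← sum_indx qd_qc Φs hs _ (fun i a x => by simpa using tx_conj hψ h2 _ Ψ' a x h' 1) g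
      (fun E => trace ℂ U (O.A g.1 * O.C h.1 * O.pW (rt Λ) * O.qW E (rt Λ))) (fun i Λ' hΛ' g' e => ?_)
      (Finset.univ.filter fun T => Φ.TS T ∧ finrank F T ≤ k ∧ T.map (g.1 : V →ₗ[F] V) = T) (by simp),
    ← O.kudlaW hΛ.1.ts_rt.q (isV g) (isW h) hc.map (Ψ.G.subtype.comp (st Λ).subtype) (fun r => isW r.1)
      (fun r => (h4 _).1 r.2) (fun y h1 h3 =>
        ⟨⟨⟨y, fun u v => Ψ.og rfl ▸ h1.polar u v, h1⟩, (h4 _).2 h3⟩, rfl⟩) _ fun T => by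
          rw [Finset.mem_filter, ts_iff_V, hΛ.2.2]
          simp]
  · refine Finset.sum_congr rfl fun r _ => ?_
    rw [tx, ← O.tr_eq_Th (isV _) (isW _), Subgroup.coe_mul, O.C_mul (isW h) (isW r.1), mul_assoc]
    rfl
  · obtain ⟨ι', R', -, h3⟩ := exists_rd hΛ'.1 (eq_bot hΛ'.2.2)
    exact O.Th_redWV R' R hΛ.1.ts_rt.q h1 (cxo hψ h2 _ Ψ') (isV g) (isV g') (h3 _ _ e) (isW h) (isW h') hc hχ

/-- `h_k* Θ* = ∑ Θ* h_i*` -/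
theorem res_thOx (f : Φ.G → ℂ) : op Ψ' Ψ 0 k (ko (fun h g => starRingEnd ℂ (tx ψ Φ Ψ g h)) f) =
    ∑ i ∈ Finset.range (k + 1),
      ko (fun h g => starRingEnd ℂ (tx ψ (Φs i) Ψ' g h)) (opx (Wo.qc F) (Φs i) Φ 0 i f) := by
  simp only [op_ko, ko_opx, op_star, opx_star qd_qc, kerWx hψ h2 Φ Ψ hW Ψ' h₁ Φs hs, map_sum, ko_sum]

/-- `Θ h_k = ∑ h_i Θ` -/
theorem thS_indx (f : Ψ'.G → ℂ) : ko (tx ψ Φ Ψ) (op Ψ Ψ' k 0 f) =
    ∑ i ∈ Finset.range (k + 1), opx (Wo.qc F) Φ (Φs i) i 0 (ko (tx ψ (Φs i) Ψ') f) := by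
  simp only [opx_ko, ko_op, kerWx hψ h2 Φ Ψ hW Ψ' h₁ Φs hs, ko_sum]

end W

end Cfsg.Agent.PQ.Wl
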