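import Cfsg.Agent.PQ.Wl.Red
import Cfsg.Agent.PQ.Wl.Gl
import Cfsg.Agent.PQ.Mk.Form

/-!
# Kudla's filtration : traces (helper9)

`Osc.kudlaV`, `Osc.kudlaW` : the sum of `tr (A g * C h * ·)` over the group which acts trivially on `E^⊥ / E`, `T^⊥ / T`.
-/

set_option autoImplicit false
set_option linter.unusedSectionVars false

namespace Cfsg.Agent.PQ.Wl

open TensorProduct Module
open LinearMap (BilinForm trace)

variable {F : Type} [Field F] {V W : Type} [AddCommGroup V] [Module F V] [AddCommGroup W] [Module F W]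
  {ψ : AddChar F ℂ} {ω : BilinForm F V} {Q : QuadraticForm F W} {γ : ℂ} {S : Type} [AddCommGroup S] [Module ℂ S]

theorem levi {o : Bool} [Finite F] [FiniteDimensional F V] (Φ : Mk.Fm o F V) {E : Submodule F V} (hE : Φ.TS E)
    (α : E →ₗ[F] E) (hα : ∀ v, α v = 0 → v = 0) : ∃ g : Φ.G, (∀ v : E, g.1 v = α v) ∧ ∀ v ∈ Φ.pp E, g.1 v - v ∈ E := by
  obtain ⟨π, hπ⟩ := LinearMap.exists_extend (α - LinearMap.id)
  have h1 : ∀ v : E, (v : V) + π v = α v := fun v => by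
    rw [show π v = α v - v from LinearMap.congr_fun hπ v, Submodule.coe_sub, add_sub_cancel]
  obtain ⟨g, hg⟩ := Φ.witt (Φ.pp E) (LinearMap.id + E.subtype ∘ₗ π) (fun u hu v hv => by
      simp [hE.b _ (π u).2 _ (π v).2, show Φ.B (π u) v = 0 from hv _ (π u).2, Φ.refl _ _ (hu _ (π v).2)])
    (fun u hu => by simp [Φ.Q_add, hE.q _ (π u).2, Φ.refl _ _ (hu _ (π u).2)]) fun v _ h => by
      have h2 : v ∈ E := (show v = -(π v : V) from eq_neg_of_add_eq_zero_left h) ▸ neg_mem (π v).2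
      exact congrArg Subtype.val (hα ⟨v, h2⟩ (Subtype.ext ((h1 ⟨v, h2⟩).symm.trans h)))
  exact ⟨g, fun v => (hg v (hE.le_pp v.2)).trans (h1 v), fun v hv => by simp [hg v hv]⟩

theorem exists_gl [FiniteDimensional F V] {φ φ' : V →ₗ[F] W} (h : LinearMap.range φ' = LinearMap.range φ) :
    ∃ α : V →ₗ[F] V, (∀ v, α v = 0 → v = 0) ∧ ∀ v, φ' (α v) = φ v := by
  obtain ⟨α, -, h1, h2⟩ := Mk.ext_on (D := ⊥) (A := ⊤) (A' := ⊤) bot_le (f := φ) (f' := φ')
    (fun u _ => (h.ge ⟨u, rfl⟩).imp fun _ h => ⟨trivial, h⟩) (by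
      have h1 := φ.finrank_range_add_finrank_ker
      have h2 := φ'.finrank_range_add_finrank_ker
      rw [h] at h2
      rw [top_inf_eq, top_inf_eq]
      omega) 0 (fun v hv => by simp [(Submodule.mem_bot F).1 hv]) fun v hv _ => hv
  exact ⟨α, fun v => h2 v trivial, fun v => (h1 v trivial).2⟩

theorem exists_range [FiniteDimensional F V] [FiniteDimensional F W] {T : Submodule F W} :
    (∃ φ : V →ₗ[F] W, LinearMap.range φ = T) ↔ finrank F T ≤ finrank F V := by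
  refine ⟨by rintro ⟨φ, rfl⟩; exact φ.finrank_range_le, fun h => ?_⟩
  obtain ⟨j, hj⟩ := (finrank_le_iff_exists_linearMap (R := F) (M := T) (M' := V)).1 h
  obtain ⟨φ, hφ⟩ := j.exists_leftInverse_of_injective (LinearMap.ker_eq_bot.2 hj)
  exact ⟨T.subtype ∘ₗ φ, by
    rw [LinearMap.range_comp_of_range_eq_top _ (f := φ) (LinearMap.range_eq_top.2 fun t => ⟨j t, LinearMap.congr_fun hφ t⟩),
      Submodule.range_subtype]⟩

theorem map_eq [FiniteDimensional F V] {g : V ≃ₗ[F] V} {E : Submodule F V} (h : ∀ v ∈ E, g v ∈ E) :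
    E.map g.toLinearMap = E :=
  Submodule.eq_of_le_of_finrank_eq (by rintro _ ⟨v, hv, rfl⟩; exact h v hv) (g.finrank_map_eq E)

/-- the action on `Hom (E, W)` -/
def bt {E : Submodule F V} {g : V ≃ₗ[F] V} (hg : E.map g.toLinearMap = E) (h : W ≃ₗ[F] W) : (E →ₗ[F] W) ≃ (E →ₗ[F] W) :=
  ((g.ofSubmodules E E hg).arrowCongr h).toEquiv

theorem bt_apply {E : Submodule F V} {g : V ≃ₗ[F] V} (hg : E.map g.toLinearMap = E) (h : W ≃ₗ[F] W) (φ : E →ₗ[F] W)
    (v : E) : bt hg h φ v = h (φ ((g.ofSubmodules E E hg).symm v)) := rfl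

theorem range_bt {E : Submodule F V} {g : V ≃ₗ[F] V} (hg : E.map g.toLinearMap = E) (h : W ≃ₗ[F] W) (φ : E →ₗ[F] W) :
    LinearMap.range (bt hg h φ) = (LinearMap.range φ).map h.toLinearMap := by
  rw [← LinearMap.range_comp, ← LinearEquiv.range_comp (g.ofSubmodules E E hg).symm (h.toLinearMap ∘ₗ φ)]
  rfl

theorem bt_eq {E : Submodule F V} {g : V ≃ₗ[F] V} (hg : E.map g.toLinearMap = E) {φ φ' : E →ₗ[F] W} {α : E →ₗ[F] E}
    (h1 : ∀ v : E, g v = α v) (h2 : ∀ v, φ' (α v) = φ v) : bt hg 1 φ = φ' := LinearMap.ext fun v => by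
  obtain ⟨v, rfl⟩ := (g.ofSubmodules E E hg).surjective v
  rw [bt_apply, LinearEquiv.symm_apply_apply, ← h2]
  exact congrArg φ' (Subtype.ext (h1 v).symm)

/-- `V ⊗ W → Hom (E, W)` -/
noncomputable def ctV (B : BilinForm F V) (E : Submodule F V) : V ⊗[F] W →ₗ[F] E →ₗ[F] W :=
  lift (LinearMap.smulRightₗ ∘ₗ (B ∘ₗ E.subtype).flip)

/-- `V ⊗ W → Hom (T, V)` -/
noncomputable def ctW (B : BilinForm F W) (T : Submodule F W) : V ⊗[F] W →ₗ[F] T →ₗ[F] V :=
  lift (LinearMap.smulRightₗ ∘ₗ (B ∘ₗ T.subtype).flip).flip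

theorem ctV_apply (B : BilinForm F V) (E : Submodule F V) (x : V ⊗[F] W) (v : E) : ctV B E x v = cl (B v) x :=
  LinearMap.congr_fun (TensorProduct.ext' (g := (ctV B E).flip v) (h := cl (B v)) fun _ _ => by
    rw [LinearMap.flip_apply, ctV, lift.tmul, cl_tmul]
    rfl) x

theorem ctW_apply (B : BilinForm F W) (T : Submodule F W) (x : V ⊗[F] W) (w : T) : ctW B T x w = cr (B w) x :=
  LinearMap.congr_fun (TensorProduct.ext' (g := (ctW B T).flip w) (h := cr (B w)) fun _ _ => by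
    rw [LinearMap.flip_apply, ctW, lift.tmul, cr_tmul]
    rfl) x

theorem exists_dual [FiniteDimensional F V] {B : BilinForm F V} (hB : ∀ φ : V →ₗ[F] F, ∃ v, ∀ u, B u v = φ u)
    (E : Submodule F V) (φ : E →ₗ[F] W) : ∃ (n : ℕ) (v : Fin n → V) (u : Fin n → E), ∀ z : E, ∑ i, B z (v i) • φ (u i) = φ z := by
  have b := Module.finBasis F E
  choose f hf using fun i => LinearMap.exists_extend (b.coord i)
  choose v hv using fun i => hB (f i)
  refine ⟨_, v, b, fun z => ?_⟩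
  conv_rhs => rw [← b.sum_repr z, map_sum]
  exact Finset.sum_congr rfl fun i _ => by rw [hv, map_smul, show f i z = b.coord i z from LinearMap.congr_fun (hf i) z]; rfl

theorem ctV_ac {E : Submodule F V} {g : V ≃ₗ[F] V} (hg : IsV ω g) (H : E.map g.toLinearMap = E) (h : W ≃ₗ[F] W)
    (x : V ⊗[F] W) : ctV ω E (ac g h x) = bt H h (ctV ω E x) := LinearMap.ext fun v => by
  rw [bt_apply, ctV_apply, ctV_apply, cl_ac]
  exact congrArg (fun φ => h (cl φ x)) (LinearMap.ext fun u =>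
    (congrArg (ω · (g u)) (g.apply_symm_apply v).symm).trans (hg _ u))

theorem ctW_ac {T : Submodule F W} {h : W ≃ₗ[F] W} (hh : IsW Q h) (H : T.map h.toLinearMap = T) (g : V ≃ₗ[F] V)
    (x : V ⊗[F] W) : ctW Q.polarBilin T (ac g h x) = bt H g (ctW Q.polarBilin T x) := LinearMap.ext fun v => by
  rw [bt_apply, ctW_apply, ctW_apply, cr_ac]
  exact congrArg (fun φ => g (cr φ x)) (LinearMap.ext fun u =>
    (congrArg (Q.polarBilin · (h u)) (h.apply_symm_apply v).symm).trans (hh.polar _ u))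

theorem tr_zero [FiniteDimensional ℂ S] {p b m : End ℂ S} (h1 : p * m = m) (h2 : m * p = m) (h : p * b * p = 0) :
    trace ℂ S (b * m) = 0 := by
  rw [← h1, ← h2, ← mul_assoc, ← mul_assoc, LinearMap.trace_mul_comm, ← mul_assoc, ← mul_assoc, h, zero_mul, map_zero]

namespace Cx

variable (c : Cx ψ ω Q γ)

/-- the symplectic space -/
def fmV : Mk.Fm false F V :=
  ⟨ω, 0, ⟨c.ndV, fun v h => c.ndV v fun u => by rw [c.skew, h, neg_zero]⟩, fun _ => ⟨c.alt, rfl⟩, nofun⟩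

/-- the orthogonal space -/
def fmW : Mk.Fm true F W :=
  ⟨Q.polarBilin, Q, ⟨c.ndW, fun v h => c.ndW v fun u => by rw [pol_comm, h]⟩, nofun, fun _ => rfl⟩

include c

theorem exists_isV (f : V →ₗ[F] V) (hf : ∀ v v', ω (f v) (f v') = ω v v') : ∃ g, IsV ω g ∧ ∀ v, g v = f v :=
  have := c.fdV
  ⟨LinearEquiv.ofInjectiveEndo f ((injective_iff_map_eq_zero _).2 fun v h => c.ndV v fun u => by
    rw [← hf, h, LinearMap.map_zero₂]), hf, fun _ => rfl⟩

theorem exists_isW (f : W →ₗ[F] W) (hf : ∀ w, Q (f w) = Q w) : ∃ h, IsW Q h ∧ ∀ w, h w = f w :=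
  have := c.fdW
  ⟨LinearEquiv.ofInjectiveEndo f ((injective_iff_map_eq_zero _).2 fun v h => c.ndW v fun u => by
    rw [← one_mul (Q.polarBilin v u), ← pol_of (j := f) (fun w => (hf w).trans (one_mul _).symm), h, LinearMap.map_zero₂]),
    hf, fun _ => rfl⟩

theorem ker_ctV {E : Submodule F V} (x : V ⊗[F] W) : ctV ω E x = 0 ↔ x ∈ tp (ω.orthogonal E) ⊤ :=
  ⟨fun h => c.mem_left fun v hv => (ctV_apply ω E x ⟨v, hv⟩).symm.trans (LinearMap.congr_fun h _),
    fun h => tp_le (Y := LinearMap.ker (ctV ω E)) (fun v hv w _ => LinearMap.ext fun u => by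
      rw [ctV_apply, cl_tmul, show ω u v = 0 from hv u u.2, zero_smul, LinearMap.zero_apply]) h⟩

theorem ker_ctW {T : Submodule F W} (x : V ⊗[F] W) : ctW Q.polarBilin T x = 0 ↔ x ∈ tp ⊤ (ow Q T) :=
  ⟨fun h => c.mem_right fun v hv => (ctW_apply _ T x ⟨v, hv⟩).symm.trans (LinearMap.congr_fun h _),
    fun h => tp_le (Y := LinearMap.ker (ctW Q.polarBilin T)) (fun v _ w hw => LinearMap.ext fun u => by
      rw [ctW_apply, cr_tmul, show Q.polarBilin u w = 0 from hw u u.2, zero_smul, LinearMap.zero_apply]) h⟩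

theorem liftV {E : Submodule F V} (φ : E →ₗ[F] W) : ∃ x ∈ tp ⊤ (LinearMap.range φ), ctV ω E x = φ := by
  have := c.fdV
  obtain ⟨n, v, u, h⟩ := exists_dual (B := ω) (fun f => (c.dualV (-f)).imp fun v hv u => by
    rw [c.skew, hv, LinearMap.neg_apply, neg_neg]) E φ
  exact ⟨∑ i, v i ⊗ₜ φ (u i), Submodule.sum_mem _ fun i _ => tmul_mem trivial ⟨_, rfl⟩, LinearMap.ext fun z => by
    rw [ctV_apply, map_sum]
    exact h z⟩

theorem liftW {T : Submodule F W} (φ : T →ₗ[F] V) : ∃ x ∈ tp (LinearMap.range φ) ⊤, ctW Q.polarBilin T x = φ := by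
  have := c.fdW
  obtain ⟨n, v, u, h⟩ := exists_dual (B := Q.polarBilin) (fun f => (c.dualW f).imp fun v hv u => by
    rw [pol_comm, hv]) T φ
  exact ⟨∑ i, φ (u i) ⊗ₜ v i, Submodule.sum_mem _ fun i _ => tmul_mem ⟨_, rfl⟩ trivial, LinearMap.ext fun z => by
    rw [ctW_apply, map_sum]
    simp only [cr_tmul]
    exact h z⟩

end Cx

namespace Osc

variable (O : Osc ψ ω Q γ S)

theorem tau_split (x y : V ⊗[F] W) : O.tau (x + y) = ψ (-tm O.ω₀ Q.polarBilin x y) • (O.tau x * O.tau y) := by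
  rw [O.tau_mul, smul_smul, ← AddChar.map_add_eq_mul, neg_add_cancel, AddChar.map_zero_eq_one, one_smul]

theorem e_split (x y : V ⊗[F] W) : O.e (x + y) = ψ (-tm ω O.b x y) • (O.e x * O.e y) := by
  rw [O.e_mul, smul_smul, ← AddChar.map_add_eq_mul, neg_add_cancel, AddChar.map_zero_eq_one, one_smul]

/-- a resolution of the identity -/
theorem res_of {H : Type} [AddCommGroup H] [Module F H] [Fintype H] (p : End ℂ S) (N : Submodule F (V ⊗[F] W))
    (hN : ∀ y ∈ N, O.tau y * p = p * O.tau y) (ct : V ⊗[F] W →ₗ[F] H) (hk : ∀ x, ct x = 0 ↔ x ∈ N) (l : H → V ⊗[F] W)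
    (hl : ∀ φ, ct (l φ) = φ) (hc : γ ^ finrank F V * trace ℂ S p = Nat.card N) :
    ∑ φ, O.tau (l φ) * p * O.ti (l φ) = 1 := by
  have := O.cx.fX
  have := Fintype.ofFinite (V ⊗[F] W)
  have := Fintype.ofFinite N
  have h := O.sum_conj p
  rw [hc, finsum_eq_sum_of_fintype, ← Function.Bijective.sum_comp (e := fun z : N × H => l z.2 + z.1)
    ⟨fun z z' e => ?_, fun x => ⟨(⟨x - l (ct x), (hk _).1 (by rw [map_sub, hl, sub_self])⟩, ct x), add_sub_cancel _ _⟩⟩,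
    Fintype.sum_prod_type, Finset.sum_congr rfl (g := fun _ => ∑ φ, O.tau (l φ) * p * O.ti (l φ)) fun y _ =>
      Finset.sum_congr rfl fun φ _ => by
        rw [← tau_conj, ti_add, tau_split, smul_mul_assoc, smul_mul_smul_comm, ← AddChar.map_add_eq_mul, neg_add_cancel,
          AddChar.map_zero_eq_one, one_smul, mul_assoc _ _ p, hN y y.2, ← mul_assoc, ← mul_assoc, mul_assoc _ _ (O.ti y),
          tau_ti, mul_one], Finset.sum_const, Finset.card_univ, ← Nat.cast_smul_eq_nsmul ℂ,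
    ← Nat.card_eq_fintype_card] at h
  · exact smul_right_injective _ (card_ne N) h
  · have e' : l z.2 + z.1 = l z'.2 + z'.1 := e
    have h1 := congrArg ct e'
    rw [map_add, map_add, hl, hl, (hk _).2 z.1.2, (hk _).2 z'.1.2, add_zero, add_zero] at h1
    rw [h1, add_right_inj] at e'
    exact Prod.ext (Subtype.ext e') h1

variable {g : V ≃ₗ[F] V} {h : W ≃ₗ[F] W} {R : Type} [Group R] [Fintype R] {E : Submodule F V} {T : Submodule F W}
  {x x' : V ⊗[F] W}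

theorem absV (hT : ItW Q T) (hx : x ∈ tp ⊤ T) (hx' : x' ∈ tp ⊤ T) (e : ctV ω E x = ctV ω E x') :
    O.tau x * O.pV E * O.qV E T = O.tau x' * O.pV E * O.qV E T := by
  have h3 := (O.cx.ker_ctV (x - x')).1 (by rw [map_sub, e, sub_self])
  rw [← add_sub_cancel x' x, ← O.tau_hom hT hx' (sub_mem hx hx'), mul_assoc (O.tau x'), O.tau_comm_pV h3, mul_assoc,
    mul_assoc, O.tau_qV hT (mem_tp_inf h3 (sub_mem hx hx')), mul_assoc]

theorem absW (hE : ItV ω E) (hx : x ∈ tp E ⊤) (hx' : x' ∈ tp E ⊤) (e : ctW Q.polarBilin T x = ctW Q.polarBilin T x') :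
    O.e x * O.pW T * O.qW E T = O.e x' * O.pW T * O.qW E T := by
  have h3 := (O.cx.ker_ctW (x - x')).1 (by rw [map_sub, e, sub_self])
  rw [← add_sub_cancel x' x, ← O.e_add hE hx' (sub_mem hx hx'), mul_assoc (O.e x'), O.e_comm_pW h3, mul_assoc,
    mul_assoc, O.e_qW hE (mem_tp_inf (sub_mem hx hx') h3), mul_assoc]

theorem killV (hE : ItV ω E) {v : V} (hv : v ∈ E) (h : Q (cl (ω v) x) ≠ 0) :
    ∃ g, IsV ω g ∧ (∀ u ∈ ω.orthogonal E, g u - u ∈ E) ∧ ∃ t : ℂ, t ≠ 1 ∧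
      O.A g * (O.tau x * O.pV E) = t • (O.tau x * O.pV E) := by
  have c := O.cx
  obtain ⟨t, ht⟩ := c.exists_c (neg_ne_zero.2 h)
  have h1 : ∀ u ∈ ω.orthogonal E, c.tv v t u - u ∈ E := fun u _ => by
    rw [Cx.tv_apply, add_sub_cancel_left]
    exact E.smul_mem _ hv
  have h4 : ac (c.tv v t) 1 x = x + v ⊗ₜ (-t • cl (ω v) x) :=
    LinearMap.congr_fun (TensorProduct.ext' (g := (ac (c.tv v t) 1).toLinearMap)
      (h := LinearMap.id + TensorProduct.mk F V W v ∘ₗ (-t • cl (ω v))) fun u w => by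
        change (u + (t * ω u v) • v) ⊗ₜ w = u ⊗ₜ w + v ⊗ₜ (-t • ω v u • w)
        rw [add_tmul, smul_tmul, smul_smul, c.skew u v, mul_neg, neg_mul]) x
  have h5 : ∀ w, tm ω O.b x (v ⊗ₜ w) = -O.b (cl (ω v) x) w := fun w =>
    LinearMap.congr_fun (TensorProduct.ext' (g := (tm ω O.b).flip (v ⊗ₜ w)) (h := -(O.b.flip w ∘ₗ cl (ω v))) fun u w' => by
      change tm ω O.b (u ⊗ₜ w') (v ⊗ₜ w) = -O.b (ω v u • w') w
      rw [tm_tmul, c.skew u v, map_smul, LinearMap.smul_apply, smul_eq_mul, neg_mul]) x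
  refine ⟨_, c.isV_tv v t, h1, _, ht, ?_⟩
  rw [tau, smul_mul_assoc, mul_smul_comm, ← mul_assoc, O.A_e (c.isV_tv v t), mul_assoc, O.A_pV_eq hE (c.isV_tv v t) h1, h4,
    e_split, smul_mul_assoc, mul_assoc, O.e_pV hE (tmul_mem hv trivial), h5, smul_comm, map_smul, O.hb, neg_neg,
    smul_eq_mul, neg_mul, mul_neg]

theorem killW (hT : ItW Q T) {w w' : W} (hw : w ∈ T) (hw' : w' ∈ T)
    (h : ω (cr (Q.polarBilin w) x) (cr (Q.polarBilin w') x) ≠ 0) :
    ∃ g, IsW Q g ∧ (∀ u ∈ ow Q T, g u - u ∈ T) ∧ ∃ t : ℂ, t ≠ 1 ∧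
      O.C g * (O.e x * O.pW T) = t • (O.e x * O.pW T) := by
  have c := O.cx
  obtain ⟨t, ht⟩ := c.exists_c h
  have h0 : ∀ z, (t * Q.polarBilin w z) • w' - (t * Q.polarBilin w' z) • w ∈ T := fun z =>
    sub_mem (T.smul_mem _ hw') (T.smul_mem _ hw)
  obtain ⟨f, f1, f2⟩ := c.exists_isW (LinearMap.id + ((t • Q.polarBilin w).smulRight w' - (t • Q.polarBilin w').smulRight w))
    fun z => by
      change Q (z + ((t * Q.polarBilin w z) • w' - (t * Q.polarBilin w' z) • w)) = Q z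
      rw [Q_add, hT _ (h0 z), map_sub, map_smul, map_smul, pol_comm Q z w, pol_comm Q z w', smul_eq_mul, smul_eq_mul]
      ring
  replace f2 : ∀ z, f z = z + ((t * Q.polarBilin w z) • w' - (t * Q.polarBilin w' z) • w) := f2
  have h1 : ∀ u ∈ ow Q T, f u - u ∈ T := fun u _ => by
    rw [f2, add_sub_cancel_left]
    exact h0 u
  have h4 : ac 1 f x = x + ((t • cr (Q.polarBilin w) x) ⊗ₜ w' - (t • cr (Q.polarBilin w') x) ⊗ₜ w) :=
    LinearMap.congr_fun (TensorProduct.ext' (g := (ac 1 f).toLinearMap)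
      (h := LinearMap.id + ((TensorProduct.mk F V W).flip w' ∘ₗ (t • cr (Q.polarBilin w)) -
        (TensorProduct.mk F V W).flip w ∘ₗ (t • cr (Q.polarBilin w')))) fun u z => by
        change u ⊗ₜ f z = u ⊗ₜ z + ((t • cr (Q.polarBilin w) (u ⊗ₜ z)) ⊗ₜ w' - (t • cr (Q.polarBilin w') (u ⊗ₜ z)) ⊗ₜ w)
        rw [f2, tmul_add, tmul_sub, cr_tmul, cr_tmul, smul_smul, smul_smul, smul_tmul, smul_tmul]) x
  have h5 : ∀ v z, tm O.ω₀ Q.polarBilin x (v ⊗ₜ z) = O.ω₀ (cr (Q.polarBilin z) x) v := fun v z =>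
    LinearMap.congr_fun (TensorProduct.ext' (g := (tm O.ω₀ Q.polarBilin).flip (v ⊗ₜ z))
      (h := O.ω₀.flip v ∘ₗ cr (Q.polarBilin z)) fun u w' => by
        change tm O.ω₀ Q.polarBilin (u ⊗ₜ w') (v ⊗ₜ z) = O.ω₀ (cr (Q.polarBilin z) (u ⊗ₜ w')) v
        rw [tm_tmul, cr_tmul, map_smul, LinearMap.smul_apply, smul_eq_mul, pol_comm, mul_comm]) x
  refine ⟨f, f1, h1, _, ht, ?_⟩
  rw [e_eq, smul_mul_assoc, mul_smul_comm, ← mul_assoc, O.C_tau f1, mul_assoc, O.C_pW_eq hT f1 h1, h4,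
    tau_split, smul_mul_assoc, mul_assoc, O.tau_pW hT (sub_mem (tmul_mem trivial hw') (tmul_mem trivial hw)), map_sub, h5,
    h5, smul_comm, map_smul, map_smul, O.hω, neg_sub, mul_sub, smul_eq_mul, smul_eq_mul]

theorem insV (hE : ItV ω E) (hT : ItW Q T) (hx : x ∈ tp ⊤ T) {u v : V} (hu : u ∈ ω.orthogonal E) (hv : v ∈ E) :
    ∃ g, IsV ω g ∧ (∀ u ∈ ω.orthogonal E, g u - u ∈ E) ∧
      O.A g * (O.tau x * O.pV E) = O.tau x * O.pV E * O.tau (u ⊗ₜ cl (ω v) x) := by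
  have c := O.cx
  have h3 : ω v u = 0 := hu v hv
  obtain ⟨f, f1, f2⟩ := c.exists_isV (LinearMap.id + (ω v).smulRight u + (ω u).smulRight v) fun z z' => by
    change ω (z + ω v z • u + ω u z • v) (z' + ω v z' • u + ω u z' • v) = ω z z'
    simp only [map_add, map_smul, LinearMap.add_apply, LinearMap.smul_apply, smul_eq_mul, c.alt, c.skew u v, h3,
      c.skew z u, c.skew z v]
    ring
  replace f2 : ∀ z, f z = z + ω v z • u + ω u z • v := f2
  have h1 : ∀ z ∈ ω.orthogonal E, f z - z ∈ E := fun z hz => by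
    rw [f2, show ω v z = 0 from hz v hv, zero_smul, add_zero, add_sub_cancel_left]
    exact E.smul_mem _ hv
  have h4 : ac f 1 x = x + u ⊗ₜ cl (ω v) x + v ⊗ₜ cl (ω u) x :=
    LinearMap.congr_fun (TensorProduct.ext' (g := (ac f 1).toLinearMap)
      (h := LinearMap.id + TensorProduct.mk F V W u ∘ₗ cl (ω v) + TensorProduct.mk F V W v ∘ₗ cl (ω u)) fun z w => by
        change f z ⊗ₜ w = z ⊗ₜ w + u ⊗ₜ (ω v z • w) + v ⊗ₜ (ω u z • w)
        rw [f2, add_tmul, add_tmul, smul_tmul, smul_tmul]) x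
  have h5 : u ⊗ₜ cl (ω v) x ∈ tp ⊤ T := tmul_mem trivial (cl_mem _ hx)
  have h6 := cl_mem (ω u) hx
  refine ⟨f, f1, h1, ?_⟩
  rw [← mul_assoc, O.A_tau f1 hT hx, mul_assoc, O.A_pV_eq hE f1 h1, h4, ← O.tau_hom hT (add_mem hx h5) (tmul_mem trivial h6),
    mul_assoc, O.tau_eq_e hE hT (tmul_mem hv h6), O.e_pV hE (tmul_mem hv trivial), ← O.tau_hom hT hx h5, mul_assoc,
    O.tau_comm_pV (tmul_mem hu trivial), mul_assoc]

theorem insW (hE : ItV ω E) (hT : ItW Q T) (hx : x ∈ tp E ⊤) {y u : W} (hy : y ∈ ow Q T) (hu : u ∈ T) :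
    ∃ g, IsW Q g ∧ (∀ u ∈ ow Q T, g u - u ∈ T) ∧
      O.C g * (O.e x * O.pW T) = O.e x * O.pW T * O.e (cr (Q.polarBilin u) x ⊗ₜ y) := by
  have c := O.cx
  have h3 : Q.polarBilin u y = 0 := hy u hu
  obtain ⟨f, f1, f2⟩ := c.exists_isW (LinearMap.id + (Q.polarBilin u).smulRight y +
    (-Q.polarBilin y - Q y • Q.polarBilin u).smulRight u) fun z => by
      change Q (z + Q.polarBilin u z • y + (-Q.polarBilin y z - Q y * Q.polarBilin u z) • u) = Q z
      simp only [Q_add, QuadraticMap.map_smul, hT u hu, map_add, map_smul, LinearMap.add_apply, LinearMap.smul_apply,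
        smul_eq_mul, pol_comm Q y u, h3, pol_comm Q z u, pol_comm Q z y]
      ring
  replace f2 : ∀ z, f z = z + Q.polarBilin u z • y + (-Q.polarBilin y z - Q y * Q.polarBilin u z) • u := f2
  have h1 : ∀ z ∈ ow Q T, f z - z ∈ T := fun z hz => by
    rw [f2, show Q.polarBilin u z = 0 from hz u hu, zero_smul, add_zero, add_sub_cancel_left]
    exact T.smul_mem _ hu
  have h4 : ac 1 f x = x + cr (Q.polarBilin u) x ⊗ₜ y + cr (-Q.polarBilin y - Q y • Q.polarBilin u) x ⊗ₜ u :=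
    LinearMap.congr_fun (TensorProduct.ext' (g := (ac 1 f).toLinearMap)
      (h := LinearMap.id + (TensorProduct.mk F V W).flip y ∘ₗ cr (Q.polarBilin u) +
        (TensorProduct.mk F V W).flip u ∘ₗ cr (-Q.polarBilin y - Q y • Q.polarBilin u)) fun v z => by
        change v ⊗ₜ f z = v ⊗ₜ z + cr (Q.polarBilin u) (v ⊗ₜ z) ⊗ₜ y + cr (-Q.polarBilin y - Q y • Q.polarBilin u) (v ⊗ₜ z) ⊗ₜ u
        rw [f2, tmul_add, tmul_add, cr_tmul, cr_tmul, smul_tmul, smul_tmul]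
        rfl) x
  have h5 : cr (Q.polarBilin u) x ⊗ₜ y ∈ tp E ⊤ := tmul_mem (cr_mem _ hx) trivial
  have h6 := cr_mem (-Q.polarBilin y - Q y • Q.polarBilin u) hx
  refine ⟨f, f1, h1, ?_⟩
  rw [← mul_assoc, O.C_e f1 hE hx, mul_assoc, O.C_pW_eq hT f1 h1, h4, ← O.e_add hE (add_mem hx h5) (tmul_mem h6 trivial),
    mul_assoc, ← O.tau_eq_e hE hT (tmul_mem h6 hu), O.tau_pW hT (tmul_mem trivial hu), ← O.e_add hE hx h5, mul_assoc,
    O.e_comm_pW (tmul_mem trivial hy), mul_assoc]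

theorem AC_tau (hg : IsV ω g) (hh : IsW Q h) (hT : ItW Q T) (hx : x ∈ tp ⊤ T) :
    O.A g * O.C h * O.tau x = O.tau (ac g h x) * (O.A g * O.C h) := by
  rw [O.A_comm_C hg hh, mul_assoc, O.A_tau hg hT hx, ← mul_assoc, O.C_tau hh, ← ac_mul, one_mul, mul_one, mul_assoc]

theorem AC_e (hg : IsV ω g) (hh : IsW Q h) (hE : ItV ω E) (hx : x ∈ tp E ⊤) :
    O.A g * O.C h * O.e x = O.e (ac g h x) * (O.A g * O.C h) := by
  rw [mul_assoc, O.C_e hh hE hx, ← mul_assoc, O.A_e hg, ← ac_mul, one_mul, mul_one, mul_assoc]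

theorem fin_of [FiniteDimensional ℂ S] {a p q u u' u'' ui : End ℂ S} (h1 : a * u' = u'' * a) (h2 : a * p = p * a)
    (h3 : a * q = q * a) (h4 : u'' * p * q = u * p * q) (h5 : ui * u = 1) :
    trace ℂ S (a * (u' * p * q) * ui) = trace ℂ S (a * p * q) := by
  rw [← mul_assoc, ← mul_assoc, h1, mul_assoc u'', h2, mul_assoc u'', mul_assoc p, h3, ← mul_assoc, ← mul_assoc, h4,
    LinearMap.trace_mul_comm, ← mul_assoc, ← mul_assoc, ← mul_assoc, h5, one_mul, mul_assoc]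

theorem fin_of' [FiniteDimensional ℂ S] {a p q u' u'' ui b : End ℂ S} {t : ℂ} (h1 : a * u' = u'' * a) (h2 : a * p = p * a)
    (h3 : p * q = q * p) (h4 : p * p = p) (h5 : ui * u'' = t • b) (h6 : p * b * p = 0) :
    trace ℂ S (a * (u' * p * q) * ui) = 0 := by
  rw [← mul_assoc, ← mul_assoc, h1, LinearMap.trace_mul_comm, mul_assoc u'', mul_assoc u'', ← mul_assoc, h5, smul_mul_assoc,
    map_smul, tr_zero (p := p) (by rw [← mul_assoc, ← mul_assoc, ← h2, mul_assoc _ _ p, h4])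
      (by rw [mul_assoc, ← h3, ← mul_assoc, mul_assoc _ _ p, h4]) h6, smul_zero]

/-- **Kudla's filtration, symplectic side** -/
theorem kudlaV (hE : ItV ω E) (hg : IsV ω g) (hgE : E.map g.toLinearMap = E) (hh : IsW Q h)
    (a : R →* V ≃ₗ[F] V) (ha : ∀ r, IsV ω (a r)) (ha' : ∀ r, ∀ v ∈ ω.orthogonal E, a r v - v ∈ E)
    (on : ∀ g, IsV ω g → (∀ v ∈ ω.orthogonal E, g v - v ∈ E) → ∃ r, a r = g) (J : Finset (Submodule F W))
    (hJ : ∀ T, T ∈ J ↔ ItW Q T ∧ finrank F T ≤ finrank F E ∧ T.map h.toLinearMap = T) :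
    ∑ r, trace ℂ S (O.A g * O.C h * O.A (a r)) =
      Fintype.card R * ∑ T ∈ J, trace ℂ S (O.A g * O.C h * O.pV E * O.qV E T) := by
  have c := O.cx
  have := O.fin
  have := c.fF
  have := c.fX
  have := c.fV
  have := c.fW
  have := c.fdV
  have := c.fdW
  have : Finite (E →ₗ[F] W) := Finite.of_injective _ (DFunLike.coe_injective (F := E →ₗ[F] W))
  have := Fintype.ofFinite (E →ₗ[F] W)
  choose l hl hl' using c.liftV (E := E)
  have h0 : ∀ r, E.map (a r).toLinearMap = E := fun r => map_eq fun v hv => by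
    simpa using add_mem (ha' r v (hE.le hv)) hv
  have h2 : ∀ (r : R) (φ : E →ₗ[F] W), LinearMap.range (bt (h0 r) 1 φ) = LinearMap.range φ := fun r φ =>
    (range_bt _ _ _).trans (Submodule.map_id _)
  refine glue (fun φ => O.tau (l φ)) (fun φ => O.ti (l φ)) (O.pV E) (O.A g * O.C h) (O.qV E) LinearMap.range (ItW Q)
    (fun r => O.A (a r)) (fun r => bt (h0 r) 1) (bt hgE h) (fun T => T.map h.toLinearMap) J
    (fun r r' => by rw [map_mul, O.A_mul (ha r) (ha r')])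
    (O.res_of _ _ (fun y hy => O.tau_comm_pV hy) _ c.ker_ctV l hl' ?_) (fun φ hφ => ?_) (fun φ hφ m hm => ?_) h2
    (fun r φ hφ => ?_) (fun φ φ' _ e => ?_) (range_bt hgE h) (fun φ φ' hφ e => ?_)
    (fun T => by rw [hJ, exists_range]) (Submodule.map_injective_of_injective h.injective)
  · refine mul_right_cancel₀ (pow_ne_zero (2 * finrank F E) c.γ_ne) ?_
    rw [mul_assoc, O.tr_pV, c.card_tp_top, ← pow_add, ← pow_add, ← c.dim_orth E]
    congr 1
    ring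
  · obtain ⟨v, hv⟩ : ∃ v, Q (φ v) ≠ 0 := by_contra fun h => hφ (by
      rintro _ ⟨v, rfl⟩
      exact by_contra fun h' => h ⟨v, h'⟩)
    obtain ⟨f, f1, f2, f3⟩ := O.killV (x := l φ) hE v.2 (by rwa [← ctV_apply, hl'])
    obtain ⟨r, rfl⟩ := on f f1 f2
    exact ⟨r, f3⟩
  · refine mul_av_of fun y hy => tp_ind (P := fun y => m * (O.tau (l φ) * O.pV E) * O.tau y = m * (O.tau (l φ) * O.pV E))
      (by rw [O.tau_zero, mul_one]) ?_ (fun y hy z hz e e' => by
        rw [← O.tau_hom hφ (tp_mono le_top le_rfl hy) (tp_mono le_top le_rfl hz), ← mul_assoc, e, e']) hy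
    rintro u hu _ ⟨v, rfl⟩
    obtain ⟨f, f1, f2, f3⟩ := O.insV hE hφ (hl φ) hu v.2
    obtain ⟨r, rfl⟩ := on f f1 f2
    rw [← ctV_apply, hl'] at f3
    rw [mul_assoc, ← f3, ← mul_assoc, hm]
  · rw [← mul_assoc, ← mul_assoc, O.A_tau (ha r) hφ (hl φ), mul_assoc _ (O.A _), O.A_pV_eq hE (ha r) (ha' r)]
    exact O.absV hφ (ac_mem (fun _ _ => Submodule.mem_top) (fun _ h => h) (hl φ)) (h2 r φ ▸ hl _)
      (by rw [ctV_ac (ha r) (h0 r), hl', hl'])
  · obtain ⟨α, h3, h4⟩ := exists_gl e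
    obtain ⟨f, f1, f2⟩ := levi c.fmV ⟨hE, fun _ _ => rfl⟩ α h3
    obtain ⟨r, hr⟩ := on f.1 f.2.1 f2
    exact ⟨r, bt_eq _ (fun v => hr ▸ f1 v) h4⟩
  · have h3 : O.A g * O.C h * O.pV E = O.pV E * (O.A g * O.C h) := by
      rw [mul_assoc, O.C_pV hh hE, ← mul_assoc, O.A_pV hg fun v hv => hgE.le ⟨v, hv, rfl⟩, mul_assoc]
    have h4 := O.AC_tau hg hh hφ (e ▸ hl φ')
    have h5 : ctV ω E (ac g h (l φ')) = bt hgE h φ' := by rw [ctV_ac hg hgE, hl']
    split_ifs with h6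
    · have h7 : (LinearMap.range φ).map h.toLinearMap = LinearMap.range φ := by rw [← e, ← range_bt hgE, h6, e]
      have h8 : ∀ w ∈ LinearMap.range φ, h w ∈ LinearMap.range φ := fun w hw => h7.le ⟨w, hw, rfl⟩
      exact fin_of h4 h3 (mul_av (rs (ac g h) fun _ hy => ac_mem (fun v hv u hu => by
          obtain ⟨u', hu', rfl⟩ := hgE.ge hu
          exact (hg u' v).trans (hv u' hu')) h8 hy) fun y => O.AC_tau hg hh hφ (tp_mono le_top le_rfl y.2))
        (O.absV hφ (ac_mem (fun _ _ => Submodule.mem_top) h8 (e ▸ hl φ')) (hl φ) (by rw [h5, h6, hl'])) (O.ti_tau _)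
    · obtain ⟨t, ht⟩ := O.ti_tau' (l φ) (ac g h (l φ'))
      exact fin_of' h4 h3 (O.pV_qV _ _) (O.pV_pV hE) ht (O.pV_e_pV hE fun h7 => h6 (by
        rw [← h5, ← hl' φ, ← sub_eq_zero, ← map_sub]
        exact (c.ker_ctV _).2 h7))

/-- **Kudla's filtration, orthogonal side** -/
theorem kudlaW (hT : ItW Q T) (hg : IsV ω g) (hh : IsW Q h) (hhT : T.map h.toLinearMap = T)
    (a : R →* W ≃ₗ[F] W) (ha : ∀ r, IsW Q (a r)) (ha' : ∀ r, ∀ v ∈ ow Q T, a r v - v ∈ T)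
    (on : ∀ g, IsW Q g → (∀ v ∈ ow Q T, g v - v ∈ T) → ∃ r, a r = g) (J : Finset (Submodule F V))
    (hJ : ∀ E, E ∈ J ↔ ItV ω E ∧ finrank F E ≤ finrank F T ∧ E.map g.toLinearMap = E) :
    ∑ r, trace ℂ S (O.A g * O.C h * O.C (a r)) =
      Fintype.card R * ∑ E ∈ J, trace ℂ S (O.A g * O.C h * O.pW T * O.qW E T) := by
  have c := O.cx
  have := O.fin
  have := c.fF
  have := c.fX
  have := c.fV
  have := c.fW
  have := c.fdV
  have := c.fdW
  have : Finite (T →ₗ[F] V) := Finite.of_injective _ (DFunLike.coe_injective (F := T →ₗ[F] V))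
  have := Fintype.ofFinite (T →ₗ[F] V)
  choose l hl hl' using c.liftW (T := T)
  have h0 : ∀ r, T.map (a r).toLinearMap = T := fun r => map_eq fun v hv => by
    simpa using add_mem (ha' r v (hT.le hv)) hv
  have h2 : ∀ (r : R) (φ : T →ₗ[F] V), LinearMap.range (bt (h0 r) 1 φ) = LinearMap.range φ := fun r φ =>
    (range_bt _ _ _).trans (Submodule.map_id _)
  refine glue (fun φ => O.e (l φ)) (fun φ => O.ei (l φ)) (O.pW T) (O.A g * O.C h) (O.qW · T) LinearMap.range (ItV ω)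
    (fun r => O.C (a r)) (fun r => bt (h0 r) 1) (bt hhT g) (fun E => E.map g.toLinearMap) J
    (fun r r' => by rw [map_mul, O.C_mul (ha r) (ha r')])
    ((Finset.sum_congr rfl fun φ _ => (O.tau_conj _ _).symm).trans
      (O.res_of _ _ (fun y hy => O.tau_comm_pW hy) _ c.ker_ctW l hl' ?_)) (fun φ hφ => ?_) (fun φ hφ m hm => ?_) h2
    (fun r φ hφ => ?_) (fun φ φ' _ e => ?_) (range_bt hhT g) (fun φ φ' hφ e => ?_)
    (fun T => by rw [hJ, exists_range]) (Submodule.map_injective_of_injective g.injective)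
  · refine mul_right_cancel₀ (pow_ne_zero (finrank F V) (card_ne T)) ?_
    rw [mul_assoc, O.tr_pW, c.card_tp, finrank_top, ← mul_pow, ← sq, c.sq, Nat.cast_pow, ← mul_pow, ← Nat.cast_mul,
      Module.natCard_eq_pow_finrank (K := F) (V := W), Module.natCard_eq_pow_finrank (K := F) (V := T),
      Module.natCard_eq_pow_finrank (K := F) (V := ow Q T), ← pow_add, add_comm, c.dim_orthW T]
  · obtain ⟨v, v', hv⟩ : ∃ v v', ω (φ v) (φ v') ≠ 0 := by_contra fun h => hφ (by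
      rintro _ ⟨v, rfl⟩ _ ⟨v', rfl⟩
      exact by_contra fun h' => h ⟨v, v', h'⟩)
    obtain ⟨f, f1, f2, f3⟩ := O.killW (x := l φ) hT v.2 v'.2 (by rwa [← ctW_apply, ← ctW_apply, hl'])
    obtain ⟨r, rfl⟩ := on f f1 f2
    exact ⟨r, f3⟩
  · refine mul_av_of fun y hy => tp_ind (P := fun y => m * (O.e (l φ) * O.pW T) * O.e y = m * (O.e (l φ) * O.pW T))
      (by rw [O.e_zero, mul_one]) ?_ (fun y hy z hz e e' => by
        rw [← O.e_add hφ (tp_mono le_rfl le_top hy) (tp_mono le_rfl le_top hz), ← mul_assoc, e, e']) hy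
    rintro _ ⟨v, rfl⟩ u hu
    obtain ⟨f, f1, f2, f3⟩ := O.insW hφ hT (hl φ) hu v.2
    obtain ⟨r, rfl⟩ := on f f1 f2
    rw [← ctW_apply, hl'] at f3
    rw [mul_assoc, ← f3, ← mul_assoc, hm]
  · rw [← mul_assoc, ← mul_assoc, O.C_e (ha r) hφ (hl φ), mul_assoc _ (O.C _), O.C_pW_eq hT (ha r) (ha' r)]
    exact O.absW hφ (ac_mem (fun _ h => h) (fun _ _ => Submodule.mem_top) (hl φ)) (h2 r φ ▸ hl _)
      (by rw [ctW_ac (ha r) (h0 r), hl', hl'])
  · obtain ⟨α, h3, h4⟩ := exists_gl e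
    obtain ⟨f, f1, f2⟩ := levi c.fmW ⟨fun _ h _ h' => hT.polar h h', hT⟩ α h3
    obtain ⟨r, hr⟩ := on f.1 f.2.2 f2
    exact ⟨r, bt_eq _ (fun v => hr ▸ f1 v) h4⟩
  · have h3 : O.A g * O.C h * O.pW T = O.pW T * (O.A g * O.C h) := by
      rw [mul_assoc, O.C_pW hh fun v hv => hhT.le ⟨v, hv, rfl⟩, ← mul_assoc, O.A_pW hT hg, mul_assoc]
    have h4 := O.AC_e hg hh hφ (e ▸ hl φ')
    have h5 : ctW Q.polarBilin T (ac g h (l φ')) = bt hhT g φ' := by rw [ctW_ac hh hhT, hl']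
    split_ifs with h6
    · have h7 : (LinearMap.range φ).map g.toLinearMap = LinearMap.range φ := by rw [← e, ← range_bt hhT, h6, e]
      have h8 : ∀ w ∈ LinearMap.range φ, g w ∈ LinearMap.range φ := fun w hw => h7.le ⟨w, hw, rfl⟩
      exact fin_of h4 h3 (mul_av (rs (ac g h) fun _ hy => ac_mem h8 (fun v hv u hu => by
          obtain ⟨u', hu', rfl⟩ := hhT.ge hu
          exact (hh.polar u' v).trans (hv u' hu')) hy) fun y => O.AC_e hg hh hφ (tp_mono le_rfl le_top y.2))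
        (O.absW hφ (ac_mem h8 (fun _ _ => Submodule.mem_top) (e ▸ hl φ')) (hl φ) (by rw [h5, h6, hl'])) (O.ei_e _)
    · exact fin_of' h4 h3 (O.pW_qW _ _) (O.pW_pW hT)
        (by rw [ei, smul_mul_assoc, O.e_mul, smul_smul, neg_add_eq_sub]) (O.pW_e_pW hT fun h7 => h6 (by
          rw [← h5, ← hl' φ, ← sub_eq_zero, ← map_sub]
          exact (c.ker_ctW _).2 h7))

end Osc

end Cfsg.Agent.PQ.Wl
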