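import Cfsg.Agent.PQ.Wl.Sum

/-!
# The Weil representation : reduction to `E^⊥ / E` and `T^⊥ / T` (helper9)

* `cp p` : compression; `Rd B B' E ι` : reduction data; `Rd.Cm g g'` : compatible pairs;
* `Osc.redV`, `Osc.redW`; `Th_redV`, `Th_redW`, `Th_redVW`, `Th_redWV`.
-/

set_option autoImplicit false
set_option linter.unusedSectionVars false

namespace Cfsg.Agent.PQ.Wl

open TensorProduct Module
open LinearMap (BilinForm trace)

variable {F : Type} [Field F] {V W V' W' : Type} [AddCommGroup V] [Module F V] [AddCommGroup W] [Module F W]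
  [AddCommGroup V'] [Module F V'] [AddCommGroup W'] [Module F W']
  {ψ : AddChar F ℂ} {ω : BilinForm F V} {Q : QuadraticForm F W} {γ γ' : ℂ} {ω' : BilinForm F V'} {Q' : QuadraticForm F W'}
  {S : Type} [AddCommGroup S] [Module ℂ S]

section cp

/-- compression to the image of `p` -/
def cp (p : End ℂ S) : End ℂ S →ₗ[ℂ] End ℂ (LinearMap.range p) where
  toFun a := p.rangeRestrict ∘ₗ a ∘ₗ (LinearMap.range p).subtype
  map_add' a b := by rw [LinearMap.add_comp, LinearMap.comp_add]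
  map_smul' c a := by rw [LinearMap.smul_comp, LinearMap.comp_smul, RingHom.id_apply]

variable {p a b : End ℂ S}

theorem cp_mul' (a b : End ℂ S) : cp p a * cp p b = cp p (a * p * b) := rfl

theorem tr_cp [FiniteDimensional ℂ S] (a : End ℂ S) : trace ℂ _ (cp p a) = trace ℂ S (a * p) :=
  LinearMap.trace_comp_comm' (a ∘ₗ (LinearMap.range p).subtype) p.rangeRestrict

variable (hp : p * p = p)
include hp

theorem cp_left (a : End ℂ S) : cp p (p * a) = cp p a :=
  LinearMap.ext fun _ => Subtype.ext (LinearMap.congr_fun hp _)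

theorem cp_right (a : End ℂ S) : cp p (a * p) = cp p a := LinearMap.ext (by
  rintro ⟨_, v, rfl⟩
  exact Subtype.ext (congrArg (fun z => p (a z)) (LinearMap.congr_fun hp v)))

theorem cp_one : cp p 1 = 1 := LinearMap.ext (by
  rintro ⟨_, v, rfl⟩
  exact Subtype.ext (LinearMap.congr_fun hp v))

theorem cp_mul_l (h : a * p = p * a) (b : End ℂ S) : cp p a * cp p b = cp p (a * b) := by
  rw [cp_mul', h, mul_assoc, cp_left hp]

theorem cp_mul_r (a : End ℂ S) (h : b * p = p * b) : cp p a * cp p b = cp p (a * b) := by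
  rw [cp_mul', mul_assoc, ← h, ← mul_assoc, cp_right hp]

theorem finrank_cp [FiniteDimensional ℂ S] : (finrank ℂ (LinearMap.range p) : ℂ) = trace ℂ S p := by
  rw [← LinearMap.trace_one, ← cp_one hp, tr_cp, one_mul]

end cp

theorem map_av {X : Type} [AddCommGroup X] [Module F X] {A A' : Type} [Ring A] [Algebra ℂ A] [Ring A'] [Algebra ℂ A']
    (Φ : A →ₗ[ℂ] A') (s : X → A) (Y : Submodule F X) [Finite Y] : Φ (av s Y) = av (fun y => Φ (s y)) Y := by
  have := Fintype.ofFinite Y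
  rw [av_eq, av_eq, map_smul, map_sum]

/-- reduction data : `ι` identifies `V'` with `E^⊥ / E` -/
structure Rd (B : BilinForm F V) (B' : BilinForm F V') (E : Submodule F V) (ι : V' →ₗ[F] V) : Prop where
  iso : E ≤ B.orthogonal E
  map : ∀ v v', B (ι v) (ι v') = B' v v'
  mem : ∀ v, ι v ∈ B.orthogonal E
  onto : ∀ v ∈ B.orthogonal E, ∃ v', v - ι v' ∈ E
  inj : ∀ v, ι v ∈ E → v = 0

/-- `g` induces `g'` -/
structure Cm (E : Submodule F V) (ι : V' →ₗ[F] V) (g : V ≃ₗ[F] V) (g' : V' ≃ₗ[F] V') : Prop where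
  st : ∀ v, g v ∈ E ↔ v ∈ E
  ind : ∀ v, g (ι v) - ι (g' v) ∈ E

theorem Cm.map {E : Submodule F V} {ι : V' →ₗ[F] V} {g : V ≃ₗ[F] V} {g' : V' ≃ₗ[F] V'} (h : Cm E ι g g') :
    E.map g.toLinearMap = E := Submodule.ext fun v => by
  rw [Submodule.mem_map_equiv, ← h.st, g.apply_symm_apply]

namespace Rd

variable {B : BilinForm F V} {B' : BilinForm F V'} {E : Submodule F V} {ι : V' →ₗ[F] V} (R : Rd B B' E ι)
include R

theorem dim [FiniteDimensional F V] (U : Submodule F V') :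
    finrank F (U.map ι ⊔ E : Submodule F V) = finrank F U + finrank F E := by
  have h := Submodule.finrank_sup_add_finrank_inf_eq (U.map ι) E
  rwa [show U.map ι ⊓ E = ⊥ from (Submodule.eq_bot_iff _).2 (by
      rintro _ ⟨⟨u, -, rfl⟩, h⟩
      rw [R.inj u h, map_zero]), finrank_bot, add_zero, ← (Submodule.equivMapOfInjective ι ((injective_iff_map_eq_zero _).2
      fun v hv => R.inj v (hv ▸ zero_mem _)) U).finrank_eq] at h

theorem orth : B.orthogonal E = (⊤ : Submodule F V').map ι ⊔ E :=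
  le_antisymm (fun v hv => by
    obtain ⟨u, hu⟩ := R.onto v hv
    exact Submodule.mem_sup.2 ⟨_, ⟨u, trivial, rfl⟩, _, hu, add_sub_cancel _ _⟩)
    (sup_le (by rintro _ ⟨u, -, rfl⟩; exact R.mem u) R.iso)

theorem dim_orth [FiniteDimensional F V] : finrank F (B.orthogonal E) = finrank F V' + finrank F E := by
  rw [R.orth, R.dim, finrank_top]

theorem fix {g : V ≃ₗ[F] V} {g' : V' ≃ₗ[F] V'} (h : Cm E ι g g') (v : V) :
    v ∈ (fx g').map ι ⊔ E ↔ v ∈ B.orthogonal E ∧ v - g.symm v ∈ E := by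
  rw [← h.st (v - _), map_sub, g.apply_symm_apply]
  constructor
  · intro hv
    obtain ⟨_, ⟨u, hu, rfl⟩, e, he, rfl⟩ := Submodule.mem_sup.1 hv
    refine ⟨add_mem (R.mem u) (R.iso he), ?_⟩
    rw [map_add, add_sub_add_comm]
    exact add_mem (by simpa only [mem_fx.1 hu] using h.ind u) (sub_mem ((h.st e).2 he) he)
  · rintro ⟨h1, h2⟩
    obtain ⟨u, hu⟩ := R.onto v h1
    refine Submodule.mem_sup.2 ⟨_, ⟨u, mem_fx.2 (sub_eq_zero.1 (R.inj _ ?_)), rfl⟩, _, hu, add_sub_cancel _ _⟩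
    convert add_mem (sub_mem (sub_mem h2 (h.ind u)) ((h.st _).2 hu)) hu using 1
    simp only [map_sub]
    abel

theorem decV {T : Submodule F W} {x : V ⊗[F] W} (hx : x ∈ tp (B.orthogonal E) T) :
    ∃ y ∈ tp ⊤ T, ∃ z ∈ tp E T, x = TensorProduct.map ι LinearMap.id y + z :=
  tp_ind (P := fun x => ∃ y ∈ tp ⊤ T, ∃ z ∈ tp E T, x = TensorProduct.map ι LinearMap.id y + z)
    ⟨0, zero_mem _, 0, zero_mem _, by simp⟩
    (fun v hv w hw => by
      obtain ⟨u, hu⟩ := R.onto v hv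
      exact ⟨u ⊗ₜ w, tmul_mem trivial hw, _, tmul_mem hu hw, by simp [sub_tmul]⟩)
    (fun _ _ _ _ ⟨y, hy, z, hz, h⟩ ⟨y', hy', z', hz', h'⟩ =>
      ⟨y + y', add_mem hy hy', z + z', add_mem hz hz', by rw [h, h', map_add, add_add_add_comm]⟩) hx

theorem decW {T : Submodule F W} {x : W ⊗[F] V} (hx : x ∈ tp T (B.orthogonal E)) :
    ∃ y ∈ tp T ⊤, ∃ z ∈ tp T E, x = TensorProduct.map LinearMap.id ι y + z :=
  tp_ind (P := fun x => ∃ y ∈ tp T ⊤, ∃ z ∈ tp T E, x = TensorProduct.map LinearMap.id ι y + z)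
    ⟨0, zero_mem _, 0, zero_mem _, by simp⟩
    (fun w hw v hv => by
      obtain ⟨u, hu⟩ := R.onto v hv
      exact ⟨w ⊗ₜ u, tmul_mem hw trivial, _, tmul_mem hw hu, by simp [tmul_sub]⟩)
    (fun _ _ _ _ ⟨y, hy, z, hz, h⟩ ⟨y', hy', z', hz', h'⟩ =>
      ⟨y + y', add_mem hy hy', z + z', add_mem hz hz', by rw [h, h', map_add, add_add_add_comm]⟩) hx

theorem memV (T : Submodule F W) {y : V' ⊗[F] W} (hy : y ∈ tp ⊤ T) :
    TensorProduct.map ι LinearMap.id y ∈ tp (B.orthogonal E) T := map_mem (fun v _ => R.mem v) (fun _ h => h) hy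

theorem memW (T : Submodule F W) {y : W ⊗[F] V'} (hy : y ∈ tp T ⊤) :
    TensorProduct.map LinearMap.id ι y ∈ tp T (B.orthogonal E) := map_mem (fun _ h => h) (fun v _ => R.mem v) hy

theorem injV [FiniteDimensional F W] {y : V' ⊗[F] W} (hy : TensorProduct.map ι LinearMap.id y ∈ tp E ⊤) : y = 0 :=
  (Submodule.mem_bot F).1 (tp_le (E := ⊥) (T := ⊤) (fun v hv w _ => by
    rw [(Submodule.mem_bot F).1 hv, zero_tmul]; exact zero_mem _) (mem_tp_left fun φ => R.inj _ (by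
      convert cr_mem φ hy using 1
      exact LinearMap.congr_fun (TensorProduct.ext' (g := ι ∘ₗ cr φ) (h := cr φ ∘ₗ TensorProduct.map ι LinearMap.id)
        fun _ _ => by simp) y)))

theorem injW [FiniteDimensional F W] {y : W ⊗[F] V'} (hy : TensorProduct.map LinearMap.id ι y ∈ tp ⊤ E) : y = 0 :=
  (Submodule.mem_bot F).1 (tp_le (E := ⊤) (T := ⊥) (fun w _ v hv => by
    rw [(Submodule.mem_bot F).1 hv, tmul_zero]; exact zero_mem _) (mem_tp_right fun φ => R.inj _ (by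
      convert cl_mem φ hy using 1
      exact LinearMap.congr_fun (TensorProduct.ext' (g := ι ∘ₗ cl φ) (h := cl φ ∘ₗ TensorProduct.map LinearMap.id ι)
        fun _ _ => by simp) y)))

theorem itV : ItV B E := fun _ hv _ hv' => R.iso hv' _ hv

end Rd

theorem mem_top (x : V ⊗[F] W) : x ∈ tp (⊤ : Submodule F V) (⊤ : Submodule F W) := tp_top (F := F) (V := V) (W := W) ▸ trivial

theorem tm_map (a : BilinForm F V) (b : BilinForm F W) (f : V' →ₗ[F] V) (f' : W' →ₗ[F] W) (x y : V' ⊗[F] W') :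
    tm a b (TensorProduct.map f f' x) (TensorProduct.map f f' y) = tm (a.compl₁₂ f f) (b.compl₁₂ f' f') x y :=
  LinearMap.congr_fun₂ (bil_ext (a := (tm a b).compl₁₂ (TensorProduct.map f f') (TensorProduct.map f f'))
    fun _ _ _ _ => by simp) x y

namespace Osc

variable (O : Osc ψ ω Q γ S) {g : V ≃ₗ[F] V} {h : W ≃ₗ[F] W} {g' : V' ≃ₗ[F] V'} {h' : W' ≃ₗ[F] W'}

theorem eq_C'' {L : Submodule F V} (hL : ω.orthogonal L = L) (hh : IsW Q h) {a m : End ℂ S} (H : O.IC h a) (h0 : m ≠ 0)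
    (h1 : a * m = m) (h2 : ∀ y ∈ tp L ⊤, O.e y * m = m) : a = O.C h := by
  have := O.cx.fX
  have h3 : O.C h * m = m := by rw [← av_mul_of h2, ← pV, ← mul_assoc, O.C_pL hL hh]
  have h4 := O.eq_smul_C hh H
  generalize trace ℂ S a / _ = t at h4
  rw [h4, smul_mul_assoc, h3] at h1
  rw [h4, show t = 1 from smul_left_injective ℂ h0 (h1.trans (one_smul _ _).symm), one_smul]

section V

variable {E : Submodule F V} {ι : V' →ₗ[F] V} (R : Rd ω ω' E ι) (x' : Cx ψ ω' Q γ)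
include R

theorem tr_pV_red : trace ℂ S (O.pV E) = γ ^ finrank F V' := by
  have := O.cx.fdV
  refine mul_right_cancel₀ (pow_ne_zero (2 * finrank F E) O.cx.γ_ne) ?_
  rw [O.tr_pV, ← pow_add, ← O.cx.dim_orth E, R.dim_orth]
  congr 1
  ring

/-- the model on the image of `pV E` -/
noncomputable def redV : Osc ψ ω' Q γ (LinearMap.range (O.pV E)) where
  cx := x'
  fin := have := O.fin; inferInstance
  ω₀ := O.ω₀.compl₁₂ ι ι
  hω v v' := by rw [← R.map, O.hω]; rfl
  b := O.b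
  hb := O.hb
  e y := cp (O.pV E) (O.e (TensorProduct.map ι LinearMap.id y))
  e_mul y z := by
    rw [cp_mul_l (O.pV_pV R.itV) (O.e_comm_pV (R.memV ⊤ (mem_top y))), O.e_mul, map_smul, map_add, tm_map,
      show ω.compl₁₂ ι ι = ω' from LinearMap.ext₂ R.map]
    rfl
  e_zero := by rw [map_zero, O.e_zero, cp_one (O.pV_pV R.itV)]
  tr_e y hy := by
    have := O.fin
    have := O.cx.fdW
    rw [tr_cp, O.tr_e_pV fun h => hy (R.injV h)]
  dim := by
    have := O.fin
    rw [finrank_cp (O.pV_pV R.itV), O.tr_pV_red R]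

theorem redV_D (v : V') (w : W) : (O.redV R x').D v w = cp (O.pV E) (O.D (ι v) w) := rfl

theorem redV_tau (y : V' ⊗[F] W) :
    (O.redV R x').tau y = cp (O.pV E) (O.tau (TensorProduct.map ι LinearMap.id y)) := by
  rw [tau, tau, map_smul, κ, κ, tm_map]
  rfl

theorem redV_A (hg : IsV ω g) (hg' : IsV ω' g') (H : Cm E ι g g') : cp (O.pV E) (O.A g) = (O.redV R x').A g' := by
  have := O.fin
  have := O.cx.fdV
  have h0 := O.pV_pV R.itV
  have h1 := O.A_pV hg fun v => (H.st v).2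
  refine Osc.eq_A _ hg' (fun v w => ?_) ?_
  · rw [redV_D, redV_D, cp_mul_l h0 h1, cp_mul_r h0 _ h1, O.A_D hg, ← add_sub_cancel (ι (g' v)) (g (ι v)), D, add_tmul,
      ← O.e_add (E := ω.orthogonal E) (fun v hv v' hv' => by rw [O.cx.skew, hv v' hv', neg_zero])
        (tmul_mem (R.mem _) trivial) (tmul_mem (H.ind v) trivial), ← cp_right h0, mul_assoc, h1, mul_assoc,
      ← mul_assoc _ (O.pV E), O.e_pV R.itV (tmul_mem (H.ind v) trivial), ← h1, ← mul_assoc, cp_right h0, D]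
  · have h2 := O.tr_A_pV R.itV hg (R.fix H)
    rw [R.dim, R.dim_orth, O.tr_pV_red R] at h2
    refine mul_right_cancel₀ (pow_ne_zero (finrank F V' + finrank F E) O.cx.γ_ne) ?_
    rw [tr_cp, h2]
    ring

theorem redV_C (hh : IsW Q h) : cp (O.pV E) (O.C h) = (O.redV R x').C h := by
  have := O.fin
  have := O.cx.fX
  have h0 := O.pV_pV R.itV
  have h1 := O.C_pV hh R.itV
  obtain ⟨L, h2, hL⟩ := O.cx.exists_lag R.itV
  have h3 := itV_of_lag hL
  refine Osc.eq_C'' _ (L := L.comap ι) (m := cp (O.pV E) (O.pV L)) (le_antisymm (fun u hu => hL.le fun l hl => ?_)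
    fun u hu u' hu' => (R.map _ _).symm.trans (h3 _ hu' _ hu)) hh (Osc.ic_of_D _ hh fun v w => ?_) (fun h4 => ?_) ?_
    fun y hy => ?_
  · obtain ⟨u', h4⟩ := R.onto l fun v hv => h3 v (h2 hv) l hl
    have h5 : ω' u' u = 0 := hu u' (show ι u' ∈ L by simpa using sub_mem hl (h2 h4))
    have h6 : ω (l - ι u') (ι u) = 0 := R.mem u _ h4
    rwa [map_sub, LinearMap.sub_apply, R.map, h5, sub_zero] at h6
  · rw [redV_D, redV_D, cp_mul_l h0 h1, cp_mul_r h0 _ h1, O.C_D hh]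
  · have h5 := congrArg (trace ℂ _) h4
    rw [tr_cp, show O.pV L * O.pV E = O.pV L from mul_av_of fun y hy => O.pV_e h3 (tp_mono h2 le_rfl hy), O.tr_pL hL,
      map_zero] at h5
    exact one_ne_zero h5
  · rw [cp_mul_l h0 h1, O.C_pL hL hh]
  · exact (cp_mul_l h0 (O.e_comm_pV (R.memV ⊤ (mem_top y))) _).trans
      (congrArg _ (O.e_pV h3 (map_mem (fun _ h => h) (fun _ h => h) hy)))

include x' in
theorem Th_redV (hg : IsV ω g) (hg' : IsV ω' g') (H : Cm E ι g g') (hh : IsW Q h) :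
    Th ψ ω' Q g' h = trace ℂ S (O.A g * O.C h * O.pV E) := by
  have := O.fin
  rw [← (O.redV R x').tr_eq_Th hg' hh, ← O.redV_A R x' hg hg' H, ← O.redV_C R x' hh,
    cp_mul_r (O.pV_pV R.itV) _ (O.C_pV hh R.itV), tr_cp]

end V

section W

variable {T : Submodule F W} {ι : W' →ₗ[F] W} (R : Rd Q.polarBilin Q'.polarBilin T ι) (hT : ItW Q T)
  (hι : ∀ w, Q (ι w) = Q' w) (x' : Cx ψ ω Q' γ')
include R hT hι x'

include O in
theorem gam_red : γ = Nat.card T * γ' := by
  have := O.cx.fW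
  have := x'.fW
  have := Fintype.ofFinite T
  have := Fintype.ofFinite W'
  have := Fintype.ofFinite (ow Q T)
  rw [← O.cx.gauss 1 one_ne_zero, ← x'.gauss 1 one_ne_zero, gauss_orth O.cx.ψne hT one_ne_zero, finsum_eq_sum_of_fintype,
    finsum_eq_sum_of_fintype, ← Function.Bijective.sum_comp (e := fun z : T × W' => (⟨z.1 + ι z.2,
      add_mem (R.iso z.1.2) (R.mem _)⟩ : ow Q T)) ⟨fun z z' h => ?_, fun w => ?_⟩, Fintype.sum_prod_type,
    Finset.sum_congr rfl (g := fun _ => ∑ w, ψ (1 * Q' w)) fun t _ => Finset.sum_congr rfl fun w _ => by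
      rw [Q_add, hT t t.2, hι, show Q.polarBilin t (ι w) = 0 from R.mem w t t.2, zero_add, add_zero],
    Finset.sum_const, Finset.card_univ, nsmul_eq_mul, Nat.card_eq_fintype_card]
  · have h1 : (z.1 : W) + ι z.2 = z'.1 + ι z'.2 := congrArg Subtype.val h
    have h2 : z.2 = z'.2 := sub_eq_zero.1 (R.inj _ (by
      rw [map_sub, show ι z.2 - ι z'.2 = z'.1 - z.1 by rw [sub_eq_sub_iff_add_eq_add, add_comm, h1]]
      exact sub_mem z'.1.2 z.1.2))
    rw [h2, add_left_inj] at h1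
    exact Prod.ext (Subtype.ext h1) h2
  · obtain ⟨u, hu⟩ := R.onto w w.2
    exact ⟨(⟨_, hu⟩, u), Subtype.ext (sub_add_cancel _ _)⟩

/-- the model on the image of `pW T` -/
noncomputable def redW : Osc ψ ω Q' γ' (LinearMap.range (O.pW T)) where
  cx := x'
  fin := have := O.fin; inferInstance
  ω₀ := O.ω₀
  hω := O.hω
  b := O.b.compl₁₂ ι ι
  hb w := (O.hb _).trans (hι w)
  e y := cp (O.pW T) (O.e (TensorProduct.map LinearMap.id ι y))
  e_mul y z := by
    rw [cp_mul_l (O.pW_pW hT) (O.e_comm_pW (R.memW ⊤ (mem_top y))), O.e_mul, map_smul, map_add, tm_map]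
    rfl
  e_zero := by rw [map_zero, O.e_zero, cp_one (O.pW_pW hT)]
  tr_e y hy := by
    have := O.fin
    have := O.cx.fdV
    rw [tr_cp, O.tr_e_pW fun h => hy (R.injW h)]
  dim := by
    have := O.fin
    have := O.cx.fW
    refine mul_right_cancel₀ (pow_ne_zero (finrank F V) (card_ne T)) ?_
    rw [finrank_cp (O.pW_pW hT), O.tr_pW, ← mul_pow, mul_comm, ← O.gam_red R hT hι x']

theorem redW_D (v : V) (w : W') : (O.redW R hT hι x').D v w = cp (O.pW T) (O.D v (ι w)) := rfl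

theorem redW_A (hg : IsV ω g) : cp (O.pW T) (O.A g) = (O.redW R hT hι x').A g := by
  have := O.fin
  have := O.cx.fW
  have h0 := O.pW_pW hT
  have h1 := O.A_pW hT hg
  refine Osc.eq_A _ hg (fun v w => ?_) ?_
  · rw [redW_D, redW_D, cp_mul_l h0 h1, cp_mul_r h0 _ h1, O.A_D hg]
  · refine mul_right_cancel₀ (pow_ne_zero (finrank F (fx g)) (card_ne T)) ?_
    rw [tr_cp, O.tr_A_pW hT hg, ← mul_pow, mul_comm, ← O.gam_red R hT hι x']

theorem redW_C (hh : IsW Q h) (hh' : IsW Q' h') (H : Cm T ι h h') : cp (O.pW T) (O.C h) = (O.redW R hT hι x').C h' := by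
  classical
  have := O.fin
  have := O.cx.fX
  have := Fintype.ofFinite (V ⊗[F] W)
  have h0 := O.pW_pW hT
  have h1 := O.C_pW hh fun v => (H.st v).2
  obtain ⟨L, -, hL⟩ := O.cx.exists_lag (E := ⊥) fun v hv _ _ => by rw [(Submodule.mem_bot F).1 hv, LinearMap.map_zero₂]
  have h3 := itV_of_lag hL
  refine Osc.eq_C'' _ hL (m := cp (O.pW T) (O.pV L)) hh' (Osc.ic_of_D _ hh' fun v w => ?_) (fun h4 => ?_) ?_ fun y hy => ?_
  · have h2 := O.tau_pW hT (tmul_mem (E := ⊤) (v := v) trivial (H.ind w))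
    rw [O.tau_tmul _ (hT _ (H.ind w))] at h2
    rw [redW_D, redW_D, cp_mul_l h0 h1, cp_mul_r h0 _ h1, O.C_D hh, ← add_sub_cancel (ι (h' w)) (h (ι w)), ← D_addW,
      ← cp_right h0, mul_assoc, h1, mul_assoc, ← mul_assoc _ (O.pW T), h2, ← h1, ← mul_assoc, cp_right h0]
  · have h5 := congrArg (trace ℂ _) h4
    rw [tr_cp, pW, tr_e_av, Finset.sum_congr rfl (g := fun y => if y.1 ∈ tp L ⊤ then 1 else 0) fun y _ => by
      split_ifs with h2
      · rw [O.tau_eq_e h3 hT (mem_tp_inf h2 y.2), O.pV_e h3 h2, O.tr_pL hL]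
      · rw [tau, mul_smul_comm, map_smul, LinearMap.trace_mul_comm, O.tr_e_pV h2, smul_zero], Finset.sum_boole,
      map_zero] at h5
    exact mul_ne_zero (inv_ne_zero (card_ne _)) (Nat.cast_ne_zero.2 (Finset.card_pos.2 ⟨0, by simp⟩).ne') h5
  · rw [cp_mul_l h0 h1, O.C_pL hL hh]
  · exact (cp_mul_l h0 (O.e_comm_pW (R.memW ⊤ (mem_top y))) _).trans
      (congrArg _ (O.e_pV h3 (map_mem (fun _ h => h) (fun _ _ => Submodule.mem_top) hy)))

theorem Th_redW (hg : IsV ω g) (hh : IsW Q h) (hh' : IsW Q' h') (H : Cm T ι h h') :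
    Th ψ ω Q' g h' = trace ℂ S (O.A g * O.C h * O.pW T) := by
  have := O.fin
  rw [← (O.redW R hT hι x').tr_eq_Th hg hh', ← O.redW_A R hT hι x' hg, ← O.redW_C R hT hι x' hh hh' H,
    cp_mul_l (O.pW_pW hT) (O.A_pW hT hg), tr_cp]

end W

/-- the average of `tau` over `E^⊥ ⊗ T` -/
noncomputable def qV (E : Submodule F V) (T : Submodule F W) : End ℂ S := av O.tau (tp (ω.orthogonal E) T)

/-- the average of `e` over `E ⊗ T^⊥` -/
noncomputable def qW (E : Submodule F V) (T : Submodule F W) : End ℂ S := av O.e (tp E (ow Q T))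

section VW

variable {E : Submodule F V} {T : Submodule F W} {x : V ⊗[F] W}

theorem tau_comm_pV (hx : x ∈ tp (ω.orthogonal E) ⊤) : O.tau x * O.pV E = O.pV E * O.tau x := by
  rw [tau, smul_mul_assoc, mul_smul_comm, O.e_comm_pV hx]

theorem tau_qV (hT : ItW Q T) (hx : x ∈ tp (ω.orthogonal E) T) : O.tau x * O.qV E T = O.qV E T :=
  have := O.cx.fX
  s_mul_av (fun _ hx _ hy => O.tau_hom hT (tp_mono le_top le_rfl hx) (tp_mono le_top le_rfl hy)) hx

theorem e_qW (hE : ItV ω E) (hx : x ∈ tp E (ow Q T)) : O.e x * O.qW E T = O.qW E T :=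
  have := O.cx.fX
  s_mul_av (fun _ hx _ hy => O.e_add hE (tp_mono le_rfl le_top hx) (tp_mono le_rfl le_top hy)) hx

theorem pV_qV (E : Submodule F V) (T : Submodule F W) : O.pV E * O.qV E T = O.qV E T * O.pV E :=
  have := O.cx.fX
  mul_av (Equiv.refl _) fun y => (O.tau_comm_pV (tp_mono le_rfl le_top y.2)).symm

theorem pW_qW (E : Submodule F V) (T : Submodule F W) : O.pW T * O.qW E T = O.qW E T * O.pW T :=
  have := O.cx.fX
  mul_av (Equiv.refl _) fun y => (O.e_comm_pW (tp_mono le_top le_rfl y.2)).symm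

variable {ι : V' →ₗ[F] V} (R : Rd ω ω' E ι) {ι' : W' →ₗ[F] W} (R' : Rd Q.polarBilin Q'.polarBilin T ι') (hT : ItW Q T)
  (hι : ∀ w, Q (ι' w) = Q' w) (x'' : Cx ψ ω' Q' γ') (hg : IsV ω g) (hg' : IsV ω' g') (H : Cm E ι g g') (hh : IsW Q h)
  (hh' : IsW Q' h') (H' : Cm T ι' h h')
include R R' hT hι x'' hg hg' H hh hh' H'

theorem Th_redVW : Th ψ ω' Q' g' h' = trace ℂ S (O.A g * O.C h * O.pV E * O.qV E T) := by
  have := O.fin
  have := O.cx.fX
  have x' : Cx ψ ω' Q γ := { O.cx with fV := x''.fV, alt := x''.alt, ndV := x''.ndV }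
  have := x'.fX
  have h0 := O.pV_pV R.itV
  have h1 : (O.redV R x').pW T = cp (O.pV E) (O.qV E T) := by
    refine (mul_av_of (s := fun y => cp (O.pV E) (O.tau y)) (Y := tp (ω.orthogonal E) T) fun y hy => ?_).symm.trans
      ((congrArg _ (map_av _ _ _).symm).trans (av_mul_of fun y hy => ?_))
    · obtain ⟨y', hy', z, hz, e⟩ := R.decV hy
      rw [e]
      clear hy e
      rename' y' => y, hy' => hy
      rw [← O.tau_hom hT (tp_mono le_top le_rfl (R.memV T hy)) (tp_mono le_top le_rfl hz), ← cp_right h0, mul_assoc,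
        O.tau_eq_e R.itV hT hz, O.e_pV R.itV (tp_mono le_rfl le_top hz), cp_right h0, ← O.redV_tau R x',
        Osc.pW_tau _ hT hy]
    · rw [redV_tau, cp_mul_l h0 (O.tau_comm_pV (R.memV ⊤ (mem_top y))), ← qV, O.tau_qV hT (R.memV T hy)]
  rw [(O.redV R x').Th_redW R' hT hι x'' hg' hh hh' H', ← O.redV_A R x' hg hg' H, ← O.redV_C R x' hh, h1,
    cp_mul_r h0 _ (O.C_pV hh R.itV), cp_mul_r h0 _ (O.pV_qV E T).symm, tr_cp, mul_assoc _ (O.qV E T), ← pV_qV,
    ← mul_assoc]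

theorem Th_redWV : Th ψ ω' Q' g' h' = trace ℂ S (O.A g * O.C h * O.pW T * O.qW E T) := by
  have := O.fin
  have := O.cx.fX
  have x' : Cx ψ ω Q' γ' := { x'' with fV := O.cx.fV, alt := O.cx.alt, ndV := O.cx.ndV }
  have := x'.fX
  have h0 := O.pW_pW hT
  have h1 : (O.redW R' hT hι x').pV E = cp (O.pW T) (O.qW E T) := by
    refine (mul_av_of (s := fun y => cp (O.pW T) (O.e y)) (Y := tp E (ow Q T)) fun y hy => ?_).symm.trans
      ((congrArg _ (map_av _ _ _).symm).trans (av_mul_of fun y hy => ?_))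
    · obtain ⟨y', hy', z, hz, e⟩ := R'.decW hy
      rw [e]
      clear hy e
      rename' y' => y, hy' => hy
      rw [← O.e_add R.itV (tp_mono le_rfl le_top (R'.memW E hy)) (tp_mono le_rfl le_top hz), ← cp_right h0, mul_assoc,
        ← O.tau_eq_e R.itV hT hz, O.tau_pW hT (tp_mono le_top le_rfl hz), cp_right h0]
      exact (O.redW R' hT hι x').pV_e R.itV hy
    · exact (cp_mul_l h0 (O.e_comm_pW (R'.memW ⊤ (mem_top y))) _).trans (congrArg _ (O.e_qW R.itV (R'.memW E hy)))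
  rw [(O.redW R' hT hι x').Th_redV R x'' hg hg' H hh', ← O.redW_A R' hT hι x' hg, ← O.redW_C R' hT hι x' hh hh' H', h1,
    cp_mul_l h0 (O.A_pW hT hg), cp_mul_r h0 _ (O.pW_qW E T).symm, tr_cp, mul_assoc _ (O.qW E T), ← pW_qW, ← mul_assoc]

end VW

end Osc

end Cfsg.Agent.PQ.Wl
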