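import Cfsg.Agent.PQ.Tw.Defs
import Cfsg.Agent.PQ.Wl.G3o
import Cfsg.Agent.PQ.G4.Od

/-!
# The Weil kernels have the properties `WkT` (helper9)
-/

set_option autoImplicit false
set_option linter.unusedSectionVars false

namespace Cfsg.Agent.PQ.Wl

open Module Cfsg Cfsg.Agent.PQ.Mk Cfsg.Agent.PQ.G4 Cfsg.Agent.PQ.Tw

variable {F : Type} [Field F] [Finite F] {ψ : AddChar F ℂ}

theorem eq_one_of_zero {V : Type} [AddCommGroup V] [Module F V] [Finite V] (h : finrank F V = 0) (g : V ≃ₗ[F] V) : g = 1 :=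
  have := Module.finrank_zero_iff.1 h
  LinearEquiv.ext fun _ => Subsingleton.elim _ _

/-- **even dimensional orthogonal spaces** -/
theorem wkT_even (hψ : ψ ≠ 1) : WkT (fun Φ Ψ => th ψ Φ Ψ) 1 false where
  qd := Qd.one
  chr Φ Ψ h := th_char hψ Φ Ψ h.even
  res_S Φ Ψ h _ Φ' h₁ _ _ _ _ Ψs hs f := by
    rw [opx_one]
    exact res_thS hψ Φ Ψ h.even Φ' h₁ Ψs hs f
  O_ind Φ Ψ h _ Φ' h₁ _ _ _ _ Ψs hs f := by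
    rw [opx_one]
    exact thO_ind hψ Φ Ψ h.even Φ' h₁ Ψs hs f
  res_O Φ Ψ h _ Ψ' h₁ _ _ _ _ Φs hs f := by
    simp only [opx_one]
    exact res_thO hψ Φ Ψ h.even Ψ' h₁ Φs hs f
  S_ind Φ Ψ h _ Ψ' h₁ _ _ _ _ Φs hs f := by
    simp only [opx_one]
    exact thS_ind hψ Φ Ψ h.even Ψ' h₁ Φs hs f
  sp_two Φ Φ' Ψ Ψ₁ h h₁ hd hn ha hb f := by
    simp only [opx_one]
    exact sp_two hψ Φ Φ' Ψ Ψ₁ h.even h₁.even hd hn ha hb f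
  sp_one Φ Φ' Ψ h _ hT hd ha hb f := by
    simp only [opx_one]
    exact sp_one hψ Φ Φ' Ψ h.even hT.q hd ha hb f
  o_two Ψ Ψ' Φ Φ₁ h h' he hd ha hb f := o_two hψ Ψ Ψ' Φ Φ₁ h.even h'.even he hd ha hb f
  o_one Ψ Ψ' Φ h h' he hd ha hb f := o_one hψ Ψ Ψ' Φ h.even h'.even he hd ha hb f
  zero_o Φ Ψ Ψ' h h' hn hd f := zero_o hψ Φ Ψ h.even Ψ' h'.even hn hd f
  zero_sp Φ Φ' Ψ h hd f := zero_sp hψ Φ Ψ h.even Φ' hd f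
  one_V Φ Ψ h h0 g y := by
    rw [th, eq_one_of_zero h0 g.1, Th_one_left (cx hψ Φ Ψ h.even) (isW y), Osc.cW, h0, pow_zero]
  one_W Φ Ψ _ h0 g y := by
    have c := cx hψ Φ Ψ (h0 ▸ Even.zero)
    have := Module.finrank_zero_iff.1 h0
    rw [th, eq_one_of_zero h0 y.1, Th_one_right c (isV g), gs, finsum_eq_single _ 0 fun x hx =>
      absurd (Subsingleton.elim x 0) hx, map_zero, AddChar.map_zero_eq_one, one_pow]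

/-- **odd dimensional orthogonal spaces** -/
theorem wkT_odd (hψ : ψ ≠ 1) (h2 : (2 : F) ≠ 0) : WkT (fun Φ Ψ => G4.tx ψ Φ Ψ) (Wo.qc F) true where
  qd := qd_qc
  chr Φ Ψ _ := tx_char hψ h2 Φ Ψ
  res_S Φ Ψ h _ Φ' h₁ _ _ _ _ Ψs hs f := res_thSx hψ h2 Φ Ψ h.odd Φ' h₁ Ψs hs f
  O_ind Φ Ψ h _ Φ' h₁ _ _ _ _ Ψs hs f := thO_indx hψ h2 Φ Ψ h.odd Φ' h₁ Ψs hs f
  res_O Φ Ψ h _ Ψ' h₁ _ _ _ _ Φs hs f := res_thOx hψ h2 Φ Ψ h.odd Ψ' h₁ Φs hs f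
  S_ind Φ Ψ h _ Ψ' h₁ _ _ _ _ Φs hs f := thS_indx hψ h2 Φ Ψ h.odd Ψ' h₁ Φs hs f
  sp_two Φ Φ' Ψ Ψ₁ h h₁ hd hn ha hb f := spx_two hψ h2 Φ Φ' Ψ Ψ₁ h.odd h₁.odd hd hn ha hb f
  sp_one Φ Φ' Ψ h T hT hd ha hb f := spx_one hψ h2 Φ Φ' Ψ h.odd (by
    have h1 := Ψ.finrank_pp T
    have h3 := Submodule.finrank_mono hT.le_pp
    have h4 := Nat.odd_iff.1 h.odd
    omega) ha hb f
  o_two Ψ Ψ' Φ Φ₁ h h' he hd ha hb f := ox_two hψ h2 Ψ Ψ' Φ Φ₁ h.odd h'.odd he hd ha hb f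
  o_one Ψ Ψ' Φ h h' he hd ha hb f := ox_one hψ h2 Ψ Ψ' Φ h.odd h'.odd he hd ha hb f
  zero_o Φ Ψ Ψ' h h' hn hd f := zerox_o hψ h2 Φ Ψ Ψ' h.odd h'.odd hn hd f
  zero_sp Φ Φ' Ψ h hd f := zerox_sp hψ h2 Φ Φ' Ψ h.odd hd f
  one_V Φ Ψ _ h0 g y := by
    rw [G4.tx, eq_one_of_zero h0 g.1, Wo.Th_one_left (cxo hψ h2 Φ Ψ) (isW y), Wo.Osc.cW, h0, pow_zero]
  one_W _ _ h := nomatch h

end Cfsg.Agent.PQ.Wl
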